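import Cfsg.Agent.QuadPair.GenField

/-!
The conic model: isometries of `2 a c - b ^ 2` and the square map from `2 × 2` matrices.
-/

set_option autoImplicit false
set_option linter.unusedSectionVars false
set_option linter.style.haveILetI false

namespace CfsgLib.HalfDeg

open CfsgLib.QuadPair Matrix

variable {k : Type*} [Field k]

/-- The form. -/
def qB (v w : Fin 3 → k) : k := v 0 * w 2 + v 2 * w 0 - v 1 * w 1

/-- The square map. -/
def sq3 (m : Matrix (Fin 2) (Fin 2) k) : Matrix (Fin 3) (Fin 3) k :=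
  !![m 0 0 ^ 2, m 0 0 * m 0 1, m 0 1 ^ 2 / 2;
     2 * m 0 0 * m 1 0, m 0 0 * m 1 1 + m 0 1 * m 1 0, m 0 1 * m 1 1;
     2 * m 1 0 ^ 2, 2 * m 1 0 * m 1 1, m 1 1 ^ 2]

/-- The points of the conic. -/
def nu (q : Fin 2 → k) : Fin 3 → k := ![q 0 ^ 2 / 2, q 0 * q 1, q 1 ^ 2]

theorem sq3_one : sq3 (1 : Matrix (Fin 2) (Fin 2) k) = 1 := by
  ext i j
  fin_cases i <;> fin_cases j <;> simp [sq3]

theorem sq3_mul (h2 : (2 : k) ≠ 0) (m n : Matrix (Fin 2) (Fin 2) k) : sq3 (m * n) = sq3 m * sq3 n := by
  ext i j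
  fin_cases i <;> fin_cases j <;> simp [sq3, Matrix.mul_apply, Fin.sum_univ_two, Fin.sum_univ_three] <;> field_simp <;> ring

theorem sq3_smul (c : k) (m : Matrix (Fin 2) (Fin 2) k) : sq3 (c • m) = c ^ 2 • sq3 m := by
  ext i j
  fin_cases i <;> fin_cases j <;> simp [sq3] <;> ring

theorem sq3_nu (h2 : (2 : k) ≠ 0) (m : Matrix (Fin 2) (Fin 2) k) (q : Fin 2 → k) :
    sq3 m *ᵥ nu q = nu (m *ᵥ q) := by
  funext i
  fin_cases i <;> simp [sq3, nu, Matrix.mulVec, dotProduct, Fin.sum_univ_two, Fin.sum_univ_three] <;> field_simp <;> ring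

theorem qB_sq3 (h2 : (2 : k) ≠ 0) (m : Matrix (Fin 2) (Fin 2) k) (v w : Fin 3 → k) :
    qB (sq3 m *ᵥ v) (sq3 m *ᵥ w) = m.det ^ 2 * qB v w := by
  simp [qB, sq3, Matrix.mulVec, dotProduct, Fin.sum_univ_three, Matrix.det_fin_two]
  field_simp
  ring

theorem qB_smul (a b : k) (v w : Fin 3 → k) : qB (a • v) (b • w) = a * b * qB v w := by
  simp [qB]; ring

/-- Lower unitriangular. -/
def low (t : k) : Matrix (Fin 2) (Fin 2) k := !![1, 0; t, 1]

/-- Upper unitriangular. -/
def up (t : k) : Matrix (Fin 2) (Fin 2) k := !![1, t; 0, 1]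

theorem up_mul (a b : k) : up a * up b = up (a + b) := by
  ext i j; fin_cases i <;> fin_cases j <;> simp [up, Matrix.mul_apply, Fin.sum_univ_two, add_comm]

theorem up_zero : up (0 : k) = 1 := by ext i j; fin_cases i <;> fin_cases j <;> simp [up]

theorem det_up (a : k) : (up a).det = 1 := by simp [up, Matrix.det_fin_two]

theorem det_low (a : k) : (low a).det = 1 := by simp [low, Matrix.det_fin_two]

theorem iso_zero_or_nu (h2 : (2 : k) ≠ 0) {v : Fin 3 → k} (hv : qB v v = 0) :
    (∃ c : k, v = c • nu ![(1 : k), 0]) ∨ ∃ c s : k, v = c • nu ![s, 1] := by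
  simp only [qB] at hv
  by_cases h : v 2 = 0
  · left
    refine ⟨2 * v 0, ?_⟩
    have h1 : v 1 = 0 := by
      rw [h] at hv
      simp at hv
      exact hv
    funext i
    fin_cases i <;> simp [nu, h, h1]
    field_simp
  · right
    refine ⟨v 2, v 1 / v 2, ?_⟩
    funext i
    fin_cases i <;> simp [nu] <;> field_simp
    linear_combination hv

/-- An element of order `p` fixing the point zero is a lower square. -/
theorem eq_low_of_fix {p : ℕ} [Fact p.Prime] [CharP k p] (h2 : (2 : k) ≠ 0) (hp : Odd p)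
    (g : Matrix (Fin 3) (Fin 3) k) (hg : g ^ p = 1) (hiso : ∀ v w, qB (g *ᵥ v) (g *ᵥ w) = qB v w)
    (lam : k) (hfix : g *ᵥ nu ![0, 1] = lam • nu ![0, 1]) : ∃ t, g = sq3 (low t) := by
  have hpow : ∀ n : ℕ, (g ^ n) *ᵥ nu ![0, 1] = lam ^ n • nu ![0, 1] := by
    intro n
    induction n with
    | zero => simp
    | succ n ih => rw [pow_succ', ← Matrix.mulVec_mulVec, ih, Matrix.mulVec_smul, hfix, smul_smul, pow_succ]
  have hroot : ∀ z : k, z ^ p = 1 → z = 1 := fun z hz => by
    have : (z - 1) ^ p = 0 := by rw [sub_pow_char, hz, one_pow, sub_self]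
    exact sub_eq_zero.1 ((pow_eq_zero_iff (Nat.Prime.ne_zero Fact.out)).1 this)
  have hlam : lam = 1 := hroot lam (by
    have := congrFun (hpow p) 2
    rw [hg, Matrix.one_mulVec] at this
    simpa [nu] using this.symm)
  subst hlam
  have hc2 : ∀ i, g i 2 = ![(0 : k), 0, 1] i := fun i => by
    have := congrFun hfix i
    fin_cases i <;> simpa [nu, Matrix.mulVec, dotProduct, Fin.sum_univ_three] using this
  have a0 := hc2 0; have a1 := hc2 1; have a2 := hc2 2
  simp at a0 a1 a2
  have hB := fun i j : Fin 3 => hiso (Pi.single i 1) (Pi.single j 1)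
  have b02 : g 0 0 = 1 := by simpa [qB, Matrix.mulVec_single_one, a0, a1, a2] using hB 0 2
  have b12 : g 0 1 = 0 := by simpa [qB, Matrix.mulVec_single_one, a0, a1, a2] using hB 1 2
  have b11 : g 1 1 * g 1 1 = 1 := by
    have := hB 1 1
    simp [qB, Matrix.mulVec_single_one, b12] at this
    linear_combination this
  have b01 : g 2 1 = g 1 0 * g 1 1 := by
    have := hB 0 1
    simp [qB, Matrix.mulVec_single_one, b12, b02] at this
    linear_combination this
  have b00 : 2 * g 2 0 = g 1 0 * g 1 0 := by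
    have := hB 0 0
    simp [qB, Matrix.mulVec_single_one, b02] at this
    linear_combination this
  have h11 : g 1 1 = 1 := by
    refine hroot _ ?_
    have key : ∀ n : ℕ, (g ^ n) 0 1 = 0 ∧ (g ^ n) 1 1 = g 1 1 ^ n := by
      intro n
      induction n with
      | zero => simp
      | succ n ih =>
        rw [pow_succ']
        simp [Matrix.mul_apply, Fin.sum_univ_three, ih.1, ih.2, b12, b02, a0, a1, pow_succ']
    have := (key p).2
    rw [hg] at this
    simpa using this.symm
  refine ⟨g 1 0 / 2, ?_⟩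
  ext i j
  fin_cases i <;> fin_cases j <;> simp [sq3, low, a0, a1, a2, b02, b12, h11, b01] <;> field_simp
  linear_combination b00

/-- A similitude fixing three points is scalar. -/
theorem scalar_of_fix_three (h2 : (2 : k) ≠ 0) (g : Matrix (Fin 3) (Fin 3) k) (μ : k)
    (hμ : μ ≠ 0) (hiso : ∀ v w, qB (g *ᵥ v) (g *ᵥ w) = μ * qB v w) (l1 l2 l3 : k)
    (h1 : g *ᵥ nu ![1, 0] = l1 • nu ![1, 0]) (h0 : g *ᵥ nu ![0, 1] = l2 • nu ![0, 1])
    (h3 : g *ᵥ nu ![1, 1] = l3 • nu ![1, 1]) : g = l3 • 1 := by
  have hc0 : ∀ i, g i 0 = ![l1, 0, 0] i := fun i => by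
    have := congrFun h1 i
    fin_cases i <;> simp [nu, Matrix.mulVec, dotProduct, Fin.sum_univ_three] at this ⊢
    · exact this.resolve_right h2
    · exact this.resolve_right (by simpa using h2)
    · exact this.resolve_right (by simpa using h2)
  have hc2 : ∀ i, g i 2 = ![0, 0, l2] i := fun i => by
    have := congrFun h0 i
    fin_cases i <;> simpa [nu, Matrix.mulVec, dotProduct, Fin.sum_univ_three] using this
  have a0 := hc0 0; have a1 := hc0 1; have a2 := hc0 2
  have c0 := hc2 0; have c1 := hc2 1; have c2 := hc2 2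
  simp at a0 a1 a2 c0 c1 c2
  have hB := fun i j : Fin 3 => hiso (Pi.single i 1) (Pi.single j 1)
  have m02 : l1 * l2 = μ := by simpa [qB, Matrix.mulVec_single_one, a0, a1, a2, c0, c1, c2] using hB 0 2
  have m01 := hB 0 1
  have m21 := hB 2 1
  have m11 := hB 1 1
  simp [qB, Matrix.mulVec_single_one, a0, a1, a2, c0, c1, c2] at m01 m21 m11
  have e0 := congrFun h3 0
  have e1 := congrFun h3 1
  have e2 := congrFun h3 2
  simp [nu, Matrix.mulVec, dotProduct, Fin.sum_univ_three, a0, a1, a2, c0, c1, c2] at e0 e1 e2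
  have hl : ∀ (x y : k), x * y = 0 → x = 0 ∨ y = 0 := fun x y h => mul_eq_zero.1 h
  have hn1 : l1 ≠ 0 := fun h' => hμ (by rw [← m02, h', zero_mul])
  have hn2 : l2 ≠ 0 := fun h' => hμ (by rw [← m02, h', mul_zero])
  have g2 : g 2 1 = 0 := m01.resolve_left hn1
  have g0 : g 0 1 = 0 := m21.resolve_left hn2
  rw [g0] at e0
  rw [g2] at e2
  have el1 : l1 = l3 := by field_simp at e0; linear_combination e0
  have el2 : l2 = l3 := by linear_combination e2
  ext i j
  fin_cases i <;> fin_cases j <;> simp [a0, a1, a2, c0, c1, c2, g0, g2, el1, el2]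
  linear_combination e1

theorem range_cast_pow {p : ℕ} [Fact p.Prime] [CharP k p] (n : ℕ) : (n : k) ∈ (ZMod.castHom dvd_rfl k : ZMod p →+* k).fieldRange :=
  ⟨(n : ZMod p), map_natCast _ n⟩

/-- Two unipotent squares in a finite group of order prime to `p ^ 2` have a parameter in the prime field. -/
theorem low_param_mem [IsAlgClosed k] {p : ℕ} [Fact p.Prime] [CharP k p] (hp : 5 ≤ p) {G : Type*} [Group G] [Finite G]
    (hsq : ¬ p ^ 2 ∣ Nat.card G) (σ : G →* Matrix (Fin 3) (Fin 3) k) (x y : G)
    (hx : σ x = sq3 (up 1)) (τ : k) (hy : σ y = sq3 (low τ)) :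
    τ ∈ (ZMod.castHom dvd_rfl k : ZMod p →+* k).fieldRange := by
  classical
  by_cases hτ : τ = 0
  · rw [hτ]; exact zero_mem _
  have h2 : (2 : k) ≠ 0 := fun h => by
    have := (CharP.cast_eq_zero_iff k p 2).1 (by exact_mod_cast h)
    exact absurd (Nat.le_of_dvd (by norm_num) this) (by omega)
  letI : Algebra (ZMod p) k := (ZMod.castHom dvd_rfl k : ZMod p →+* k).toAlgebra
  let sqHom : SpecialLinearGroup (Fin 2) k →* Matrix (Fin 3) (Fin 3) k :=
    { toFun := fun g => sq3 g.1
      map_one' := sq3_one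
      map_mul' := fun a b => sq3_mul h2 a.1 b.1 }
  set Img : Subgroup (SpecialLinearGroup (Fin 2) k) :=
    Subgroup.comap sqHom.toHomUnits σ.toHomUnits.range with hImg
  have hker : ∀ g : SpecialLinearGroup (Fin 2) k, sqHom g = 1 → g = 1 ∨ g = -1 := by
    intro g hg
    have e00 : g.1 0 0 ^ 2 = 1 := by simpa [sqHom, sq3] using congrFun (congrFun hg 0) 0
    have e01 : g.1 0 1 = 0 := by
      have := congrFun (congrFun hg 0) 2
      simpa [sqHom, sq3, h2] using this
    have e10 : g.1 1 0 = 0 := by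
      have := congrFun (congrFun hg 2) 0
      simpa [sqHom, sq3, h2] using this
    have hdet : g.1 0 0 * g.1 1 1 = 1 := by
      have := g.2
      rw [Matrix.det_fin_two, e01, zero_mul, sub_zero] at this
      exact this
    rcases sq_eq_one_iff.1 e00 with h | h <;> rw [h] at hdet
    · left; apply sl2_ext <;> simp [h, e01, e10]; linear_combination hdet
    · right; apply sl2_ext <;> simp [h, e01, e10]; linear_combination -hdet
  set f : Img →* σ.toHomUnits.range := (sqHom.toHomUnits.comp Img.subtype).codRestrict _ fun g => g.2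
  have hfker : Nat.card f.ker ≤ 2 ∧ Finite f.ker := by
    have hsub : ∀ g : f.ker, ((g : Img) : SpecialLinearGroup (Fin 2) k) ∈ ({1, -1} : Finset (SpecialLinearGroup (Fin 2) k)) := by
      intro g
      have := congrArg (fun z : σ.toHomUnits.range => ((z : (Matrix (Fin 3) (Fin 3) k)ˣ) : Matrix (Fin 3) (Fin 3) k)) g.2
      rcases hker _ this with h | h
      · exact Finset.mem_insert.2 (Or.inl h)
      · exact Finset.mem_insert_of_mem (Finset.mem_singleton.2 h)
    let j : f.ker → ({1, -1} : Finset (SpecialLinearGroup (Fin 2) k)) := fun g => ⟨_, hsub g⟩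
    have hj : Function.Injective j := fun a b h => by
      simp only [j, Subtype.mk.injEq] at h
      exact Subtype.ext (Subtype.ext h)
    refine ⟨(Nat.card_le_card_of_injective j hj).trans ?_, Finite.of_injective j hj⟩
    rw [Nat.card_eq_fintype_card, Fintype.card_coe]
    exact Finset.card_le_two
  haveI := hfker.2
  haveI : Finite σ.toHomUnits.range := Finite.of_surjective _ σ.toHomUnits.rangeRestrict_surjective
  haveI : Finite (Img ⧸ f.ker) := Finite.of_equiv _ (QuotientGroup.quotientKerEquivRange f).symm.toEquiv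
  haveI hfinI : Finite Img := Finite.of_equiv _ (Subgroup.groupEquivQuotientProdSubgroup (s := f.ker)).symm
  have hcard : ¬ p ^ 2 ∣ Nat.card Img := by
    intro hd
    apply hsq
    have h1 : Nat.card Img = Nat.card f.ker * Nat.card f.range := by
      rw [← Subgroup.index_ker, Subgroup.card_mul_index]
    have hco : (p ^ 2).Coprime (Nat.card f.ker) := by
      refine (((Fact.out : p.Prime).coprime_iff_not_dvd).2 fun h => ?_).pow_left 2
      have := Nat.le_of_dvd Nat.card_pos h
      have := hfker.1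
      omega
    rw [h1] at hd
    refine ((hco.dvd_of_dvd_mul_left hd).trans (Subgroup.card_subgroup_dvd_card _)).trans ?_
    exact Subgroup.card_range_dvd σ.toHomUnits
  have hu : uR (1 : k) ∈ Img := ⟨x, Units.ext hx⟩
  have hl : lR τ ∈ Img := ⟨y, Units.ext hy⟩
  have hint : IsIntegral (ZMod p) τ := by
    obtain ⟨n, hn, hpow⟩ := isOfFinOrder_iff_pow_eq_one.1
      (isOfFinOrder_of_finite (⟨_, Img.mul_mem hu hl⟩ : Img))
    have hpow' : (uR (1 : k) * lR τ : SpecialLinearGroup (Fin 2) k).1 ^ n = 1 := by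
      have := congrArg (fun z : Img => (z : SpecialLinearGroup (Fin 2) k).1) hpow
      simpa using this
    obtain ⟨z, hz⟩ := IsAlgClosed.exists_root (Polynomial.X ^ 2 - Polynomial.C (2 + τ) * Polynomial.X + 1 : Polynomial k)
      (by rw [Polynomial.degree_eq_natDegree (fun h => by simpa using congrArg (fun q : Polynomial k => q.coeff 0) h)]
          intro h0
          have hc := Polynomial.coeff_eq_zero_of_natDegree_lt (p := (Polynomial.X ^ 2 - Polynomial.C (2 + τ) * Polynomial.X + 1 : Polynomial k)) (n := 2) (by simp_all)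
          simp [Polynomial.coeff_one] at hc)
    simp [Polynomial.IsRoot] at hz
    set g := (uR (1 : k) * lR τ : SpecialLinearGroup (Fin 2) k).1
    have hdet : (g - z • (1 : Matrix (Fin 2) (Fin 2) k)).det = 0 := by
      simp [g, Matrix.det_fin_two, Matrix.mul_apply, Fin.sum_univ_two]
      linear_combination hz
    obtain ⟨c, hc⟩ := ((Commute.one_right g).smul_right z).sub_dvd_pow_sub_pow n
    rw [hpow', smul_pow, one_pow] at hc
    have hzn : z ^ n = 1 := by
      have h := congrArg Matrix.det hc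
      rw [Matrix.det_mul, hdet, zero_mul, show (1 : Matrix (Fin 2) (Fin 2) k) - z ^ n • 1 = (1 - z ^ n) • 1 by
        rw [sub_smul, one_smul], Matrix.det_smul, Matrix.det_one, mul_one, Fintype.card_fin, pow_eq_zero_iff two_ne_zero,
        sub_eq_zero] at h
      exact h.symm
    have hzi : IsIntegral (ZMod p) z := IsIntegral.of_pow hn (by rw [hzn]; exact isIntegral_one)
    have hz0 : z ≠ 0 := fun h => by rw [h, zero_pow hn.ne'] at hzn; exact zero_ne_one hzn
    have hzi' : IsIntegral (ZMod p) z⁻¹ := IsIntegral.of_pow hn (by rw [inv_pow, hzn, inv_one]; exact isIntegral_one)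
    have e : τ = z + z⁻¹ - (1 + 1) := by field_simp; linear_combination -hz
    rw [e]
    exact (hzi.add hzi').sub (isIntegral_one.add isIntegral_one)
  let L := IntermediateField.adjoin (ZMod p) ({τ} : Set k)
  haveI : FiniteDimensional (ZMod p) L := IntermediateField.adjoin.finiteDimensional hint
  let s : L := IntermediateField.AdjoinSimple.gen (ZMod p) τ
  have hgen : gens (ZMod p) s = ⊤ := by
    refine gens_eq_top ?_ (by rw [Nat.card_zmod]; omega) (fun h => hτ (congrArg Subtype.val h)) ?_
    · intro h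
      exact h2 (by have := congrArg (ZMod.castHom dvd_rfl k) h; rwa [map_ofNat, map_zero] at this)
    · exact (IntermediateField.adjoin.powerBasis hint).adjoin_gen_eq_top
  let emb : SpecialLinearGroup (Fin 2) L →* SpecialLinearGroup (Fin 2) k := SpecialLinearGroup.map L.val.toRingHom
  have hle : (gens (ZMod p) s).map emb ≤ Img := by
    rw [gens, MonoidHom.map_closure, Subgroup.closure_le]
    rintro _ ⟨_, (⟨c, rfl⟩ | ⟨c, rfl⟩), rfl⟩
    · have e : emb (uR (algebraMap (ZMod p) L c)) = uR (1 : k) ^ c.val := by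
        have hp' : ∀ n : ℕ, uR (1 : k) ^ n = uR (n : k) := fun n => by
          induction n with
          | zero => simp [uR_zero]
          | succ n ih => rw [pow_succ, ih, ← uR_add, Nat.cast_succ]
        rw [hp']
        apply sl2_ext <;> simp [emb, RingHom.algebraMap_toAlgebra, ZMod.natCast_val]
      exact e ▸ Img.pow_mem hu _
    · have e : emb (lR (algebraMap (ZMod p) L c * s)) = lR τ ^ c.val := by
        have hp' : ∀ n : ℕ, lR τ ^ n = lR ((n : k) * τ) := fun n => by
          induction n with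
          | zero => simp [lR_zero]
          | succ n ih => rw [pow_succ, ih, ← lR_add, Nat.cast_succ, add_mul, one_mul]
        rw [hp']
        apply sl2_ext <;> simp [emb, s, RingHom.algebraMap_toAlgebra, ZMod.natCast_val]
      exact e ▸ Img.pow_mem hl _
  haveI : Finite L := Module.finite_of_finite (ZMod p)
  let upHom : Multiplicative L →* Img :=
    { toFun := fun z => ⟨emb (uR z.toAdd), hle ⟨_, hgen ▸ Subgroup.mem_top _, rfl⟩⟩
      map_one' := Subtype.ext (by simp [uR_zero])
      map_mul' := fun a b => Subtype.ext (by simp [uR_add]) }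
  have hinj : Function.Injective upHom := fun a b h => by
    have := congrArg (fun z : Img => (z : SpecialLinearGroup (Fin 2) k).1 0 1) h
    simpa [upHom, emb] using this
  have hd := Subgroup.card_dvd_of_injective upHom hinj
  rw [Nat.card_congr Multiplicative.toAdd, Module.natCard_eq_pow_finrank (K := ZMod p) (V := L), Nat.card_zmod] at hd
  have hf : Module.finrank (ZMod p) L ≤ 1 := by
    by_contra h
    exact hcard ((pow_dvd_pow p (by omega)).trans hd)
  have hbot : L = ⊥ := IntermediateField.finrank_eq_one_iff.1 (le_antisymm hf Module.finrank_pos)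
  have hmem : τ ∈ (⊥ : IntermediateField (ZMod p) k) := hbot ▸ IntermediateField.mem_adjoin_simple_self (ZMod p) τ
  obtain ⟨c, hc⟩ := IntermediateField.mem_bot.1 hmem
  exact ⟨c, hc⟩

end CfsgLib.HalfDeg
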