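import Mathlib

/-!
An idempotent commuting with the normaliser of a Sylow subgroup of order `p` lifts to an invariant one.
-/

set_option autoImplicit false
set_option linter.unusedSectionVars false
set_option linter.style.haveILetI false

namespace CfsgLib.HalfDeg

open scoped Pointwise

variable {k : Type*} [Field k] {p : ℕ} [Fact p.Prime] [CharP k p] {G : Type*} [Group G] [Finite G]
  {M : Type*} [AddCommGroup M] [Module k M] [FiniteDimensional k M]

theorem mem_zpowers_of_normalizer {x : G} (hx : orderOf x = p) (hsq : ¬ p ^ 2 ∣ Nat.card G) {y : G}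
    (hy : y ∈ Subgroup.normalizer (Subgroup.zpowers x : Set G)) (hyp : y ^ p = 1) : y ∈ Subgroup.zpowers x := by
  have h1 : IsPGroup p (Subgroup.zpowers x) := IsPGroup.of_card (n := 1) (by rw [Nat.card_zpowers, hx, pow_one])
  have h2 : IsPGroup p (Subgroup.zpowers y) := by
    obtain ⟨i, -, hi⟩ := (Nat.dvd_prime_pow Fact.out).1 (show orderOf y ∣ p ^ 1 by
      rw [pow_one]; exact orderOf_dvd_of_pow_eq_one hyp)
    exact IsPGroup.of_card (n := i) (by rw [Nat.card_zpowers, hi])
  have h3 : IsPGroup p ↥(Subgroup.zpowers x ⊔ Subgroup.zpowers y) :=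
    h1.to_sup_of_normal_left' h2 (Subgroup.zpowers_le.2 hy)
  obtain ⟨m, hm⟩ := IsPGroup.iff_card.1 h3
  have hm1 : m ≤ 1 := by
    by_contra h
    exact hsq (dvd_trans (pow_dvd_pow p (by omega)) (hm ▸ Subgroup.card_subgroup_dvd_card _))
  have heq : Subgroup.zpowers x = Subgroup.zpowers x ⊔ Subgroup.zpowers y :=
    Subgroup.eq_of_le_of_card_ge le_sup_left (by
      rw [hm, Nat.card_zpowers, hx]
      exact le_trans (Nat.pow_le_pow_right (Nat.Prime.pos Fact.out) hm1) (pow_one p).le)
  exact heq ▸ Subgroup.mem_sup_right (Subgroup.mem_zpowers y)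

set_option maxHeartbeats 800000 in
theorem exists_lift (σ : Representation k G M) (B : M → M → k) (hB : ∀ g a b, B (σ g a) (σ g b) = B a b)
    (hBadd : ∀ a a' b, B (a + a') b = B a b + B a' b) (hBadd' : ∀ a b b', B a (b + b') = B a b + B a b')
    {x : G} (hx : orderOf x = p) (hsq : ¬ p ^ 2 ∣ Nat.card G) (π : Module.End k M) (hπ : π * π = π)
    (hπB : ∀ a b, B (π a) b = B a (π b))
    (hN : ∀ g ∈ Subgroup.normalizer (Subgroup.zpowers x : Set G), Commute π (σ g))
    (hX : (σ x - 1) ^ (p - 1) = 0) :
    ∃ ε : Module.End k M, ε * ε = ε ∧ (∀ g, Commute ε (σ g)) ∧ (∀ a b, B (ε a) b = B a (ε b)) ∧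
      Module.finrank k (LinearMap.range ε) = Module.finrank k (LinearMap.range π) ∧
      ∀ v ∈ LinearMap.range π, (σ x - 1) ((σ x - 1) v) ≠ 0 →
        ∃ w ∈ LinearMap.range ε, (σ x - 1) ((σ x - 1) w) ≠ 0 := by
  classical
  haveI := Fintype.ofFinite G
  set P := Subgroup.zpowers x with hP
  set N := Subgroup.normalizer (P : Set G) with hNdef
  have hxN : ∀ y ∈ P, y ∈ N := fun y hy => Subgroup.le_normalizer hy
  haveI := Fintype.ofFinite (G ⧸ N)
  haveI := Fintype.ofFinite P
  have hu : ∀ g : G, σ g⁻¹ * σ g = 1 ∧ σ g * σ g⁻¹ = 1 := fun g => by constructor <;> rw [← map_mul] <;> simp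
  let F : G ⧸ N → Module.End k M := fun q => σ q.out * π * σ q.out⁻¹
  have hFout : ∀ g : G, F (g : G ⧸ N) = σ g * π * σ g⁻¹ := by
    intro g
    obtain ⟨n, hn⟩ : ∃ n : N, (g : G ⧸ N).out = g * n := QuotientGroup.mk_out_eq_mul N g
    show σ _ * π * σ _⁻¹ = _
    rw [hn, map_mul, mul_inv_rev, map_mul, mul_assoc (σ g), ← (hN _ n.2).eq, ← mul_assoc (σ g), mul_assoc (σ g * π),
      ← mul_assoc (σ (n : G)), (hu _).2, one_mul]
  have hFsmul : ∀ (g : G) (q : G ⧸ N), F (g • q) = σ g * F q * σ g⁻¹ := by
    intro g q
    induction q using QuotientGroup.induction_on with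
    | H h =>
      rw [show g • ((h : G) : G ⧸ N) = ((g * h : G) : G ⧸ N) from rfl, hFout, hFout, map_mul, mul_inv_rev, map_mul]
      simp only [mul_assoc]
  set base : G ⧸ N := ((1 : G) : G ⧸ N)
  have hFbase : F base = π := by rw [hFout, inv_one, map_one, one_mul, mul_one]
  have hfix : ∀ y ∈ P, y ≠ 1 → ∀ q : G ⧸ N, y • q = q → q = base := by
    intro y hy hy1 q hq
    induction q using QuotientGroup.induction_on with
    | H g =>
      have h : ((g : G) : G ⧸ N) = ((y * g : G) : G ⧸ N) := hq.symm
      rw [QuotientGroup.eq, ← mul_assoc] at h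
      have hyp : y ^ p = 1 := by
        obtain ⟨i, rfl⟩ := Subgroup.mem_zpowers_iff.1 hy
        rw [← zpow_natCast, ← zpow_mul, mul_comm, zpow_mul, zpow_natCast, ← hx, pow_orderOf_eq_one, one_zpow]
      have h2 : g⁻¹ * y * g ∈ P := mem_zpowers_of_normalizer hx hsq h (by
        have := _root_.conj_pow (i := p) (a := g⁻¹) (b := y)
        rw [inv_inv] at this
        rw [this, hyp, mul_one, inv_mul_cancel])
      haveI : Fact (Nat.card P).Prime := ⟨by rw [Nat.card_zpowers, hx]; exact Fact.out⟩
      have hgen : Subgroup.zpowers (g⁻¹ * y * g) = P := by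
        refine Subgroup.eq_of_le_of_card_ge (Subgroup.zpowers_le.2 h2) ?_
        rw [Nat.card_zpowers, Nat.card_zpowers, hx]
        refine le_of_eq (orderOf_eq_prime ?_ ?_).symm
        · have := _root_.conj_pow (i := p) (a := g⁻¹) (b := y)
          rw [inv_inv] at this
          rw [this, hyp, mul_one, inv_mul_cancel]
        · intro h0; exact hy1 (by simpa [mul_assoc] using congrArg (fun z => g * z * g⁻¹) h0)
      have hyP : Subgroup.zpowers y = P := by
        refine Subgroup.eq_of_le_of_card_ge (Subgroup.zpowers_le.2 hy) ?_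
        rw [Nat.card_zpowers, Nat.card_zpowers, hx]
        exact le_of_eq (orderOf_eq_prime hyp hy1).symm
      have hgN : g ∈ N := by
        refine Subgroup.mem_normalizer_iff.2 fun z => ?_
        have hmap : P.map (MulAut.conj g).toMonoidHom = P := by
          conv_lhs => rw [← hgen, MonoidHom.map_zpowers]
          rw [← hyP]
          congr 1
          simp [mul_assoc]
        constructor
        · intro hz; rw [← hmap]; exact ⟨z, hz, rfl⟩
        · intro hz
          rw [← hmap] at hz
          obtain ⟨w, hw, hwz⟩ := hz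
          rwa [← (MulAut.conj g).injective (hwz : (MulAut.conj g) w = (MulAut.conj g) z)]
      rw [QuotientGroup.eq]
      simpa using hgN
  -- orbit representatives
  let rep : G ⧸ N → G ⧸ N := fun q => (Quotient.mk (MulAction.orbitRel P (G ⧸ N)) q).out
  have hrep_inv : ∀ (y : P) q, rep ((y : G) • q) = rep q := fun y q =>
    congrArg Quotient.out (Quotient.sound ⟨y, rfl⟩)
  have hrep_mem : ∀ q, ∃ y : P, (y : G) • rep q = q := fun q => by
    have h : MulAction.orbitRel P (G ⧸ N) q (rep q) := Quotient.exact (Quotient.out_eq _).symm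
    obtain ⟨y, hy⟩ := h
    exact ⟨y, hy⟩
  have hbase_fix : ∀ y : P, (y : G) • base = base := fun y => by
    show ((y * 1 : G) : G ⧸ N) = _
    rw [QuotientGroup.eq]
    simpa using hxN _ y.2
  let R : Finset (G ⧸ N) := Finset.univ.filter fun q => rep q = q ∧ q ≠ base
  set u : Module.End k M := ∑ q ∈ R, F q with hudef
  set A := ∑ q, F q with hA
  have hf : A - π = ∑ y : P, σ (y : G) * u * σ (y : G)⁻¹ := by
    have h1 : ∑ y : P, σ (y : G) * u * σ (y : G)⁻¹ = ∑ z ∈ (Finset.univ : Finset P) ×ˢ R, F ((z.1 : G) • z.2) := by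
      rw [Finset.sum_product]
      refine Finset.sum_congr rfl fun y _ => ?_
      rw [hudef, Finset.mul_sum, Finset.sum_mul]
      exact Finset.sum_congr rfl fun q _ => (hFsmul _ _).symm
    have h2 : ∑ z ∈ (Finset.univ : Finset P) ×ˢ R, F ((z.1 : G) • z.2) = ∑ q ∈ Finset.univ.erase base, F q := by
      refine Finset.sum_bij (fun z _ => (z.1 : G) • z.2) ?_ ?_ ?_ (fun z _ => rfl)
      · rintro ⟨y, q⟩ hz
        simp only [Finset.mem_product, R, Finset.mem_filter, Finset.mem_univ, true_and] at hz
        refine Finset.mem_erase.2 ⟨fun he => hz.2 ?_, Finset.mem_univ _⟩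
        rw [← hbase_fix y] at he
        exact MulAction.injective (y : G) he
      · rintro ⟨y, q⟩ hz ⟨y', q'⟩ hz' he
        simp only [Finset.mem_product, R, Finset.mem_filter, Finset.mem_univ, true_and] at hz hz'
        have hq : q = q' := by
          rw [← hz.1, ← hz'.1, ← hrep_inv y q, ← hrep_inv y' q']
          exact congrArg rep he
        subst hq
        have hx' : ((y' : G)⁻¹ * y) • q = q := by
          rw [mul_smul]
          simp only at he
          rw [he, inv_smul_smul]
        have : (y' : G)⁻¹ * y = 1 := by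
          by_contra hne
          exact hz.2 (hfix _ (P.mul_mem (P.inv_mem y'.2) y.2) hne q hx')
        exact Prod.ext (Subtype.ext (inv_mul_eq_one.1 this).symm) rfl
      · intro q hq
        obtain ⟨y, hy⟩ := hrep_mem q
        refine ⟨(y, rep q), ?_, hy⟩
        simp only [Finset.mem_product, R, Finset.mem_filter, Finset.mem_univ, true_and]
        refine ⟨congrArg Quotient.out (Quotient.out_eq _), fun he => ?_⟩
        rw [he, hbase_fix y] at hy
        exact (Finset.mem_erase.1 hq).1 hy.symm
    rw [h1, h2, hA, ← Finset.add_sum_erase Finset.univ F (Finset.mem_univ base), hFbase, add_sub_cancel_left]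
  have hAG : ∀ g, Commute A (σ g) := fun g => by
    have h1 : σ g * A * σ g⁻¹ = A := by
      rw [hA, Finset.mul_sum, Finset.sum_mul]
      exact Fintype.sum_equiv (MulAction.toPerm g) _ _ fun q => (hFsmul g q).symm
    calc A * σ g = σ g * A * σ g⁻¹ * σ g := by rw [h1]
      _ = σ g * A := by rw [mul_assoc, (hu g).1, mul_one]
  have hgeom : ∑ i ∈ Finset.range p, σ x ^ i = 0 := by
    haveI : CharP (Polynomial k) p := inferInstance
    have h1 : (∑ i ∈ Finset.range p, (Polynomial.X : Polynomial k) ^ i) = (Polynomial.X - 1) ^ (p - 1) := by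
      refine mul_right_cancel₀ (Polynomial.X_sub_C_ne_zero (1 : k)) ?_
      rw [map_one, geom_sum_mul, ← pow_succ, Nat.sub_add_cancel (Nat.Prime.one_le Fact.out), sub_pow_char, one_pow]
    have := congrArg (Polynomial.aeval (σ x)) h1
    simpa [hX] using this
  have hker : ∀ v, σ x v = v → (A - π) v = 0 := by
    intro v hv
    have hpow : ∀ y : P, σ ((y : G))⁻¹ v = v := by
      intro y
      have hall : ∀ n : ℕ, σ (x ^ n) v = v := fun n => by
        induction n with
        | zero => simp
        | succ n ih => rw [pow_succ, map_mul, Module.End.mul_apply, hv, ih]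
      obtain ⟨n, hn⟩ := (Subgroup.mem_zpowers_iff (g := x)).1 (P.inv_mem y.2)
      rw [← hn]
      obtain ⟨m, hm⟩ : ∃ m : ℕ, x ^ n = x ^ m := by
        obtain ⟨m, hm⟩ := (isOfFinOrder_of_finite x).mem_powers_iff_mem_zpowers.2 (Subgroup.zpow_mem_zpowers x n)
        exact ⟨m, hm.symm⟩
      rw [hm]; exact hall m
    rw [hf, LinearMap.sum_apply]
    simp only [Module.End.mul_apply, hpow]
    have hsum : ∑ y : P, σ (y : G) = 0 := by
      rw [← hgeom]
      rw [← Fintype.sum_equiv (finEquivZPowers (isOfFinOrder_of_finite x)) (fun i => σ x ^ (i : ℕ)) _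
        (fun i => by rw [← map_pow]; rfl), Fin.sum_univ_eq_sum_range (fun i => σ x ^ i), hx]
    rw [← LinearMap.sum_apply, hsum, LinearMap.zero_apply]
  have hπx : Commute π (σ x) := hN x (hxN x (Subgroup.mem_zpowers x))
  -- maps commuting with x and killing its fixed points are nilpotent
  have hnil : ∀ f : Module.End k M, Commute f (σ x) → (∀ v, σ x v = v → f v = 0) → IsNilpotent f := by
    intro f hf1 hf2
    refine ⟨p - 1, LinearMap.ext fun v => ?_⟩
    have key : ∀ m : ℕ, ∀ v, ((σ x - 1) ^ m) v = 0 → (f ^ m) v = 0 := by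
      intro m
      induction m with
      | zero => intro v hv; simpa using hv
      | succ m ih =>
        intro v hv
        rw [pow_succ', Module.End.mul_apply, LinearMap.sub_apply, Module.End.one_apply, sub_eq_zero] at hv
        have hc : Commute ((σ x - 1) ^ m) f := ((hf1.symm).sub_left (Commute.one_left f)).pow_left m
        rw [pow_succ, Module.End.mul_apply]
        refine ih _ ?_
        rw [← Module.End.mul_apply, hc.eq, Module.End.mul_apply]
        exact hf2 _ hv
    exact key _ v (by rw [hX]; rfl)
  set f0 := A - π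
  have hf0x : Commute f0 (σ x) := (hAG x).sub_left hπx
  have hA2 : IsNilpotent (A * A - A) := by
    refine hnil _ (((hAG x).mul_left (hAG x)).sub_left (hAG x)) fun v hv => ?_
    have h1 : A v = π v := by
      have := hker v hv
      rwa [LinearMap.sub_apply, sub_eq_zero] at this
    have h2 : σ x (π v) = π v := by rw [← Module.End.mul_apply, ← hπx.eq, Module.End.mul_apply, hv]
    have h3 : A (π v) = π (π v) := by
      have := hker _ h2
      rwa [LinearMap.sub_apply, sub_eq_zero] at this
    rw [LinearMap.sub_apply, Module.End.mul_apply, h1, h3, ← Module.End.mul_apply, hπ, sub_self]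
  obtain ⟨m, hm⟩ := hA2
  set ε := A ^ p ^ m with hεdef
  have hεx : Commute ε (σ x) := (hAG x).pow_left _
  have hεε : ε * ε = ε := by
    rcases subsingleton_or_nontrivial M with hs | hs
    · exact LinearMap.ext fun v => Subsingleton.elim _ _
    haveI : CharP (Module.End k M) p :=
      charP_of_injective_algebraMap (FaithfulSMul.algebraMap_injective k (Module.End k M)) p
    have h0 : (A * A - A) ^ p ^ m = 0 :=
      pow_eq_zero_of_le (Nat.lt_pow_self (Nat.Prime.one_lt Fact.out)).le hm
    rw [sub_pow_char_pow_of_commute _ _ ((Commute.refl A).mul_left (Commute.refl A)), (Commute.refl A).mul_pow, sub_eq_zero] at h0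
    exact h0
  have hεfix : ∀ v, σ x v = v → ε v = π v := by
    intro v hv
    have key : ∀ j, 0 < j → (A ^ j) v = π v := by
      intro j hj
      induction j with
      | zero => omega
      | succ j ih =>
        rcases Nat.eq_zero_or_pos j with rfl | hj'
        · rw [pow_one]
          have := hker v hv
          rwa [LinearMap.sub_apply, sub_eq_zero] at this
        · rw [pow_succ', Module.End.mul_apply, ih hj']
          have h2 : σ x (π v) = π v := by rw [← Module.End.mul_apply, ← hπx.eq, Module.End.mul_apply, hv]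
          have := hker _ h2
          rw [LinearMap.sub_apply, sub_eq_zero] at this
          rw [this, ← Module.End.mul_apply, hπ]
    exact key _ (pow_pos (Nat.Prime.pos Fact.out) m)
  have hd : IsNilpotent (ε - π) := hnil _ (hεx.sub_left hπx) fun v hv => by rw [LinearMap.sub_apply, hεfix v hv, sub_self]
  have hinj : ∀ (a b : Module.End k M), IsNilpotent (a - b) → ∀ v, b v = v → a v = 0 → v = 0 := by
    intro a b hab v hb ha
    obtain ⟨n, hn⟩ := hab
    have h1 : ∀ j, ((a - b) ^ j) v = (-1 : k) ^ j • v := by
      intro j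
      induction j with
      | zero => simp
      | succ j ih => rw [pow_succ', Module.End.mul_apply, ih, map_smul, LinearMap.sub_apply, ha, hb, zero_sub,
          smul_neg, pow_succ, mul_neg_one, neg_smul]
    have := h1 n
    rw [hn, LinearMap.zero_apply] at this
    exact (smul_eq_zero.1 this.symm).resolve_left (pow_ne_zero _ (neg_ne_zero.2 one_ne_zero))
  have hπfix : ∀ v ∈ LinearMap.range π, π v = v := by rintro _ ⟨w, rfl⟩; rw [← Module.End.mul_apply, hπ]
  have hεfix' : ∀ v ∈ LinearMap.range ε, ε v = v := by rintro _ ⟨w, rfl⟩; rw [← Module.End.mul_apply, hεε]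
  have i1 : Function.Injective ((ε.comp (LinearMap.range π).subtype).codRestrict (LinearMap.range ε) fun v => ⟨_, rfl⟩) := by
    rw [← LinearMap.ker_eq_bot, LinearMap.ker_eq_bot']
    intro v hv
    exact Subtype.ext (hinj ε π hd _ (hπfix _ v.2) (congrArg Subtype.val hv))
  have i2 : Function.Injective ((π.comp (LinearMap.range ε).subtype).codRestrict (LinearMap.range π) fun v => ⟨_, rfl⟩) := by
    rw [← LinearMap.ker_eq_bot, LinearMap.ker_eq_bot']
    intro v hv
    exact Subtype.ext (hinj π ε (by rw [← neg_sub]; exact hd.neg) _ (hεfix' _ v.2) (congrArg Subtype.val hv))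
  refine ⟨ε, hεε, fun g => (hAG g).pow_left _, ?_, le_antisymm (LinearMap.finrank_le_finrank_of_injective i2)
    (LinearMap.finrank_le_finrank_of_injective i1), fun v hv hne => ⟨ε v, ⟨v, rfl⟩, fun h0 => hne ?_⟩⟩
  · have hB0 : ∀ b, B 0 b = 0 := fun b => by
      have := hBadd 0 0 b; rw [add_zero] at this; exact left_eq_add.1 this
    have hB0' : ∀ b, B b 0 = 0 := fun b => by
      have := hBadd' b 0 0; rw [add_zero] at this; exact left_eq_add.1 this
    have hF : ∀ q a b, B (F q a) b = B a (F q b) := by
      intro q a b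
      simp only [F, Module.End.mul_apply]
      conv_lhs => rw [← hB q.out⁻¹, ← Module.End.mul_apply (σ q.out⁻¹), (hu _).1, Module.End.one_apply, hπB,
        ← hB q.out, ← Module.End.mul_apply (σ q.out), (hu _).2, Module.End.one_apply]
    have hAB : ∀ a b, B (A a) b = B a (A b) := by
      intro a b
      simp only [hA, LinearMap.sum_apply]
      refine Finset.induction_on (Finset.univ : Finset (G ⧸ N)) (by simp [hB0, hB0']) fun q s hq ih => ?_
      rw [Finset.sum_insert hq, Finset.sum_insert hq, hBadd, hBadd', ih, hF]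
    intro a b
    rw [hεdef]
    generalize p ^ m = n
    induction n generalizing a b with
    | zero => simp
    | succ n ih =>
      conv_lhs => rw [pow_succ, Module.End.mul_apply, ih, hAB, ← Module.End.mul_apply, ← pow_succ']
  · have hc : Commute (σ x - 1) ε := (hεx.symm).sub_left (Commute.one_left ε)
    have hcπ : Commute (σ x - 1) π := (hπx.symm).sub_left (Commute.one_left π)
    refine hinj ε π hd _ ?_ ?_
    · have h := LinearMap.congr_fun (hcπ.mul_left hcπ).eq v
      simp only [Module.End.mul_apply, hπfix v hv] at h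
      exact h.symm
    · have h := LinearMap.congr_fun (hc.mul_left hc).eq v
      simp only [Module.End.mul_apply, h0] at h
      exact h.symm

end CfsgLib.HalfDeg
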