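import Mathlib

/-!
A nilpotent Jordan block completed to a three dimensional triple.
-/

set_option autoImplicit false
set_option linter.unusedSectionVars false

namespace CfsgLib.HalfDeg

open Matrix Finset

variable (k : Type*) [Field k] (l : ℕ)

/-- The lower shift. -/
def jE : Matrix (Fin l) (Fin l) k := Matrix.of fun i j => if (i : ℕ) = j + 1 then 1 else 0

/-- Its partner. -/
def jF : Matrix (Fin l) (Fin l) k :=
  Matrix.of fun i j => if (i : ℕ) + 1 = j then ((j : ℕ) : k) * ((l : k) - ((j : ℕ) : k)) else 0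

/-- The diagonal element. -/
def jH : Matrix (Fin l) (Fin l) k := Matrix.diagonal fun i => (l : k) - 1 - 2 * ((i : ℕ) : k)

/-- The diagonal matrix of powers. -/
def jD (c : k) : Matrix (Fin l) (Fin l) k := Matrix.diagonal fun i => c ^ (i : ℕ)

variable {k l}

theorem jE_mul_jF : jE k l * jF k l = Matrix.diagonal fun i : Fin l => ((i : ℕ) : k) * ((l : k) - ((i : ℕ) : k)) := by
  ext i j
  rw [mul_apply]
  by_cases h0 : (i : ℕ) = 0
  · rw [Finset.sum_eq_zero fun m _ => by simp [jE, h0]]
    by_cases hij : i = j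
    · subst hij; simp [h0]
    · simp [hij]
  · have hlt : (i : ℕ) - 1 < l := by omega
    rw [Finset.sum_eq_single ⟨(i : ℕ) - 1, hlt⟩ (fun m _ hm => ?_) (by simp)]
    · by_cases hij : i = j
      · subst hij
        simp only [jE, jF, of_apply, diagonal_apply_eq]
        rw [if_pos (by omega), if_pos (by omega), one_mul]
      · have : ¬ (i : ℕ) = j := fun h => hij (Fin.ext h)
        simp [jE, jF, hij, show ¬ (i : ℕ) - 1 + 1 = j by omega]
    · have : ¬ (i : ℕ) = m + 1 := fun h => hm (Fin.ext (by simp; omega))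
      simp [jE, this]

theorem jF_mul_jE : jF k l * jE k l = Matrix.diagonal fun i : Fin l => (((i : ℕ) : k) + 1) * ((l : k) - ((i : ℕ) : k) - 1) := by
  ext i j
  rw [mul_apply]
  by_cases h0 : (i : ℕ) + 1 = l
  · rw [Finset.sum_eq_zero fun m _ => by simp [jF, show ¬ (i : ℕ) + 1 = m by omega]]
    by_cases hij : i = j
    · subst hij
      have : (l : k) = ((i : ℕ) : k) + 1 := (congrArg (Nat.cast : ℕ → k) h0).symm.trans (by push_cast; ring)
      simp [this]
    · simp [hij]
  · have hlt : (i : ℕ) + 1 < l := by omega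
    rw [Finset.sum_eq_single ⟨(i : ℕ) + 1, hlt⟩ (fun m _ hm => ?_) (by simp)]
    · by_cases hij : i = j
      · subst hij
        simp only [jE, jF, of_apply, diagonal_apply_eq, if_true]
        push_cast
        ring
      · have : ¬ (i : ℕ) = j := fun h => hij (Fin.ext h)
        simp [jE, jF, hij, this]
    · have : ¬ (i : ℕ) + 1 = m := fun h => hm (Fin.ext (by simp; omega))
      simp [jF, this]

theorem comm_jE_jF : jE k l * jF k l - jF k l * jE k l = - jH k l := by
  rw [jE_mul_jF, jF_mul_jE, jH, diagonal_sub, diagonal_neg]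
  congr 1
  funext i
  ring

theorem comm_jE_jH : jE k l * jH k l - jH k l * jE k l = (2 : k) • jE k l := by
  ext i j
  rw [Matrix.sub_apply, jH, mul_diagonal, diagonal_mul, Matrix.smul_apply, smul_eq_mul]
  by_cases h : (i : ℕ) = j + 1
  · simp only [jE, of_apply, h, if_true, one_mul, mul_one]
    push_cast
    ring
  · simp [jE, h]

theorem jD_conj_jE (c : k) : jD k l c * jE k l = c • (jE k l * jD k l c) := by
  ext i j
  rw [jD, diagonal_mul, Matrix.smul_apply, mul_diagonal, smul_eq_mul]
  by_cases h : (i : ℕ) = j + 1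
  · simp [jE, h, pow_succ, mul_comm]
  · simp [jE, h]

theorem jD_conj_jH (c : k) : jD k l c * jH k l = jH k l * jD k l c := by
  rw [jD, jH, diagonal_mul_diagonal, diagonal_mul_diagonal]
  congr 1
  funext i
  ring

theorem jD_conj_jF (c : k) : c • (jD k l c * jF k l) = jF k l * jD k l c := by
  ext i j
  rw [jD, Matrix.smul_apply, diagonal_mul, mul_diagonal, smul_eq_mul]
  by_cases h : (i : ℕ) + 1 = j
  · simp only [jF, of_apply, h, if_true]
    rw [← h, pow_succ]
    ring
  · simp [jF, h]

theorem trace_jE_jH : trace (jE k l * jH k l) = 0 := by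
  rw [trace, Finset.sum_eq_zero]
  intro i _
  simp [jH, jE]

theorem trace_jF_jH : trace (jF k l * jH k l) = 0 := by
  rw [trace, Finset.sum_eq_zero]
  intro i _
  simp [jH, jF]

theorem trace_jE_jE : trace (jE k l * jE k l) = 0 := by
  rw [trace, Finset.sum_eq_zero]
  intro i _
  rw [diag_apply, mul_apply, Finset.sum_eq_zero]
  intro m _
  simp only [jE, of_apply]
  split_ifs <;> first | omega | simp

theorem trace_jF_jF : trace (jF k l * jF k l) = 0 := by
  rw [trace, Finset.sum_eq_zero]
  intro i _
  rw [diag_apply, mul_apply, Finset.sum_eq_zero]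
  intro m _
  simp only [jF, of_apply]
  split_ifs <;> first | omega | simp

theorem trace_jH_jH : trace (jH k l * jH k l) = 2 * trace (jE k l * jF k l) := by
  have h1 : trace (jH k l * jH k l) = - trace ((jE k l * jF k l - jF k l * jE k l) * jH k l) := by
    rw [comm_jE_jF, Matrix.neg_mul, trace_neg, neg_neg]
  rw [h1, Matrix.sub_mul, trace_sub, Matrix.mul_assoc, Matrix.mul_assoc, trace_mul_comm (jE k l) _,
    Matrix.mul_assoc, ← trace_sub, ← Matrix.mul_sub, ← neg_sub, comm_jE_jH, Matrix.mul_neg, trace_neg, neg_neg,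
    Matrix.mul_smul, trace_smul, smul_eq_mul, trace_mul_comm]

theorem six_trace : 6 * trace (jE k l * jF k l) = ((l : k) - 1) * l * ((l : k) + 1) := by
  rw [jE_mul_jF, trace_diagonal, Fin.sum_univ_eq_sum_range (fun i => (i : k) * ((l : k) - (i : k)))]
  have key : ∀ (n : ℕ) (L : k), 6 * ∑ i ∈ range n, (i : k) * (L - (i : k)) =
      ((n : k) - 1) * n * (3 * L - (2 * (n : k) - 1)) := by
    intro n L
    induction n with
    | zero => simp
    | succ n ih => rw [Finset.sum_range_succ, mul_add, ih]; push_cast; ring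
  rw [key]; ring

theorem trace_jE_jF_ne_zero {p : ℕ} [Fact p.Prime] [CharP k p] (hp : 5 ≤ p) (hl : 2 ≤ l) (hlp : l + 1 < p) :
    trace (jE k l * jF k l) ≠ 0 := by
  intro h
  have h6 := six_trace (k := k) (l := l)
  rw [h, mul_zero] at h6
  have e : ((l : k) - 1) * l * ((l : k) + 1) = (((l - 1) * l * (l + 1) : ℕ) : k) := by
    push_cast [show 1 ≤ l by omega]; ring
  rw [e] at h6
  have := (CharP.cast_eq_zero_iff k p _).1 h6.symm
  rcases (Nat.Prime.dvd_mul Fact.out).1 this with h1 | h1
  · rcases (Nat.Prime.dvd_mul Fact.out).1 h1 with h2 | h2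
    · exact absurd (Nat.le_of_dvd (by omega) h2) (by omega)
    · exact absurd (Nat.le_of_dvd (by omega) h2) (by omega)
  · exact absurd (Nat.le_of_dvd (by omega) h1) (by omega)

end CfsgLib.HalfDeg
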