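import Cfsg.Agent.HalfDeg.Conic
import Cfsg.Agent.HalfDeg.Lift

/-!
A finite group of isometries of the conic, with a Sylow subgroup of order `p` not normal, is `PSL(2,p)`.
-/

set_option autoImplicit false
set_option linter.unusedSectionVars false
set_option linter.style.haveILetI false

namespace CfsgLib.HalfDeg

open CfsgLib.QuadPair Matrix

variable {k : Type*} [Field k] {p : ℕ} [Fact p.Prime] [CharP k p]

theorem two_ne_zero_of_five_le (hp : 5 ≤ p) : (2 : k) ≠ 0 := fun h => by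
  have := (CharP.cast_eq_zero_iff k p 2).1 (by exact_mod_cast h)
  exact absurd (Nat.le_of_dvd (by norm_num) this) (by omega)

theorem up_mulVec (t s : k) : up t *ᵥ ![s, 1] = ![s + t, 1] := by
  funext i; fin_cases i <;> simp [up, Matrix.mulVec, dotProduct, Fin.sum_univ_two]

theorem up_mulVec_inf (t : k) : up t *ᵥ ![(1 : k), 0] = ![1, 0] := by
  funext i; fin_cases i <;> simp [up, Matrix.mulVec, dotProduct, Fin.sum_univ_two]

theorem sq3_up_mul (h2 : (2 : k) ≠ 0) (a b : k) : sq3 (up a) * sq3 (up b) = sq3 (up (a + b)) := by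
  rw [← sq3_mul h2, up_mul]

theorem sq3_up_zero : sq3 (up (0 : k)) = 1 := by rw [up_zero, sq3_one]

theorem trace_sq3 (m : Matrix (Fin 2) (Fin 2) k) : Matrix.trace (sq3 m) = m.trace ^ 2 - m.det := by
  simp [Matrix.trace, Fin.sum_univ_three, Fin.sum_univ_two, sq3, Matrix.det_fin_two]
  ring

/-- An element of order `p` fixing the point at infinity is an upper square. -/
theorem eq_up_of_fix (hp : 5 ≤ p) (g : Matrix (Fin 3) (Fin 3) k) (hg : g ^ p = 1)
    (hiso : ∀ v w, qB (g *ᵥ v) (g *ᵥ w) = qB v w) (lam : k) (hfix : g *ᵥ nu ![(1 : k), 0] = lam • nu ![(1 : k), 0]) :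
    ∃ t, g = sq3 (up t) := by
  have h2 := two_ne_zero_of_five_le (k := k) hp
  set w : Matrix (Fin 2) (Fin 2) k := !![0, 1; -1, 0] with hwdef
  set w' : Matrix (Fin 2) (Fin 2) k := !![0, -1; 1, 0] with hw'def
  have hww : w * w' = 1 ∧ w' * w = 1 := by
    constructor <;> ext i j <;> fin_cases i <;> fin_cases j <;> simp [w, w', Matrix.mul_apply, Fin.sum_univ_two]
  have hinv : sq3 w' * sq3 w = 1 ∧ sq3 w * sq3 w' = 1 := by
    constructor <;> rw [← sq3_mul h2] <;> simp [hww.1, hww.2, sq3_one]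
  have hdet : w.det = 1 ∧ w'.det = 1 := by constructor <;> simp [w, w', Matrix.det_fin_two]
  obtain ⟨t, ht⟩ := eq_low_of_fix (p := p) h2 ((Fact.out : p.Prime).odd_of_ne_two (by omega))
    (sq3 w * g * sq3 w') (by
      have key : ∀ n : ℕ, (sq3 w * g * sq3 w') ^ n = sq3 w * g ^ n * sq3 w' := by
        intro n
        induction n with
        | zero => simp [hinv.2]
        | succ n ih =>
          rw [pow_succ, ih, pow_succ]
          simp only [mul_assoc]
          rw [← mul_assoc (sq3 w') (sq3 w), hinv.1, one_mul]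
      rw [key, hg, mul_one, hinv.2])
    (fun v u => by
      simp only [← Matrix.mulVec_mulVec]
      rw [qB_sq3 h2, hiso, qB_sq3 h2, hdet.1, hdet.2]; ring)
    lam (by
      have e1 : w' *ᵥ ![(0 : k), 1] = ![-1, 0] := by
        funext i; fin_cases i <;> simp [w', Matrix.mulVec, dotProduct, Fin.sum_univ_two]
      have e2 : nu (![-1, 0] : Fin 2 → k) = nu ![1, 0] := by funext i; fin_cases i <;> simp [nu]
      have e3 : w *ᵥ ![(1 : k), 0] = ![0, -1] := by
        funext i; fin_cases i <;> simp [w, Matrix.mulVec, dotProduct, Fin.sum_univ_two]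
      have e4 : nu (![0, -1] : Fin 2 → k) = nu ![0, 1] := by funext i; fin_cases i <;> simp [nu]
      simp only [← Matrix.mulVec_mulVec]
      rw [sq3_nu h2, e1, e2, hfix, Matrix.mulVec_smul, sq3_nu h2, e3, e4])
  refine ⟨-t, ?_⟩
  have h : g = sq3 w' * sq3 (low t) * sq3 w := by
    rw [← ht]
    simp only [mul_assoc, hinv.1, mul_one]
    rw [← mul_assoc, hinv.1, one_mul]
  rw [h, ← sq3_mul h2, ← sq3_mul h2]
  congr 1
  ext i j
  fin_cases i <;> fin_cases j <;> simp [w, w', low, up, Matrix.mul_apply, Fin.sum_univ_two]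

theorem nu_ne (s : k) (c : k) : nu ![(1 : k), 0] ≠ c • nu ![s, 1] ∨ (2 : k) = 0 := by
  by_cases h2 : (2 : k) = 0
  · exact Or.inr h2
  refine Or.inl fun h => ?_
  have e0 := congrFun h 0
  have e2 := congrFun h 2
  simp [nu] at e0 e2
  rw [← e2] at e0
  simp [h2] at e0

variable {G : Type*} [Group G] [Finite G]

set_option maxHeartbeats 3200000 in
theorem nonempty_equiv_psl [IsAlgClosed k] (hp : 5 ≤ p) (hsq : ¬ p ^ 2 ∣ Nat.card G)
    (σ : G →* Matrix (Fin 3) (Fin 3) k) (hiso : ∀ g v w, qB (σ g *ᵥ v) (σ g *ᵥ w) = qB v w)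
    {x : G} (hx : orderOf x = p) (hσx : σ x = sq3 (up 1)) (hnn : ¬ (Subgroup.zpowers x).Normal)
    (hscal : ∀ g, (∃ c : k, σ g = c • 1) → g ∈ Subgroup.center G) (hcen : ∀ z ∈ Subgroup.center G, σ z = 1)
    (hprim : ∀ (h : G) (n : ℕ), h * x * h⁻¹ = x ^ n → orderOf (n : ZMod p) ≠ p - 1) :
    Nonempty ((G ⧸ Subgroup.center G) ≃* Matrix.ProjectiveSpecialLinearGroup (Fin 2) (ZMod p)) := by
  classical
  have hpp : p.Prime := Fact.out
  have h2 := two_ne_zero_of_five_le (k := k) hp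
  set ι : ZMod p →+* k := ZMod.castHom dvd_rfl k
  set S := ι.fieldRange with hSdef
  have hnatS : ∀ n : ℕ, (n : k) ∈ S := fun n => ⟨(n : ZMod p), map_natCast _ n⟩
  have hxp : x ^ p = 1 := by rw [← hx, pow_orderOf_eq_one]
  have hσinv : ∀ g, σ g⁻¹ * σ g = 1 ∧ σ g * σ g⁻¹ = 1 := fun g => by constructor <;> rw [← map_mul] <;> simp
  have hσxn : ∀ n : ℕ, σ (x ^ n) = sq3 (up (n : k)) := fun n => by
    induction n with
    | zero => simp [sq3_up_zero]
    | succ n ih => rw [pow_succ, map_mul, ih, hσx, sq3_up_mul h2, Nat.cast_succ]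
  have hinf : ∀ n : k, sq3 (up n) *ᵥ nu ![(1 : k), 0] = nu ![(1 : k), 0] := fun n => by
    rw [sq3_nu h2, up_mulVec_inf]
  have hshift : ∀ t s : k, sq3 (up t) *ᵥ nu ![s, 1] = nu ![s + t, 1] := fun t s => by rw [sq3_nu h2, up_mulVec]
  have hne : ∀ s c : k, nu ![(1 : k), 0] ≠ c • nu ![s, 1] := fun s c => (nu_ne s c).resolve_right h2
  have hnu0 : ∀ s : k, nu ![s, 1] ≠ 0 := fun s h => by simpa [nu] using congrFun h 2
  have hinf0 : nu ![(1 : k), 0] ≠ 0 := fun h => by simpa [nu, h2] using congrFun h 0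
  have hnn' : ∀ y : G, y ^ p = 1 → Commute y x → y ∈ Subgroup.zpowers x := fun y hy hc => by
    refine mem_zpowers_of_normalizer hx hsq (Subgroup.mem_normalizer_iff.2 fun z => ?_) hy
    constructor
    · intro hz
      obtain ⟨i, rfl⟩ := Subgroup.mem_zpowers_iff.1 hz
      rw [(hc.zpow_right i).eq, mul_inv_cancel_right]
      exact Subgroup.zpow_mem_zpowers x i
    · intro hz
      obtain ⟨i, hi⟩ := Subgroup.mem_zpowers_iff.1 hz
      have : z = x ^ i := by
        have h := congrArg (fun a => y⁻¹ * a * y) hi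
        simp only [mul_assoc, inv_mul_cancel_left, inv_mul_cancel, mul_one] at h
        rw [← h, (hc.zpow_right i).symm.eq, inv_mul_cancel_left]
      exact this ▸ Subgroup.zpow_mem_zpowers x i
  -- injectivity on elements of order `p`
  have hinjp : ∀ u v : G, u ^ p = 1 → v ^ p = 1 → σ u = σ v → u = v := by
    intro u v hu hv huv
    set c := u * v⁻¹ with hc
    have hσc : σ c = 1 := by rw [hc, map_mul, huv, (hσinv v).2]
    have hcZ : c ∈ Subgroup.center G := hscal c ⟨1, by rw [hσc, one_smul]⟩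
    have hcom : ∀ g, Commute c g := fun g => (Subgroup.mem_center_iff.1 hcZ g).symm
    have hcp : c ^ p = 1 := by
      have h := (hcom v).mul_pow p
      rw [hc, inv_mul_cancel_right, hu, hv, mul_one] at h
      exact h.symm
    have hc1 : c = 1 := by
      by_contra h
      have hmem := hnn' c hcp (hcom x)
      refine hnn ⟨fun a ha g => ?_⟩
      have hgen : Subgroup.zpowers c = Subgroup.zpowers x :=
        Subgroup.eq_of_le_of_card_ge (Subgroup.zpowers_le.2 hmem)
          (by rw [Nat.card_zpowers, Nat.card_zpowers, orderOf_eq_prime hcp h, hx])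
      rw [← hgen] at ha ⊢
      obtain ⟨i, rfl⟩ := Subgroup.mem_zpowers_iff.1 ha
      rw [← ((hcom g).zpow_left i).eq, mul_inv_cancel_right]
      exact Subgroup.zpow_mem_zpowers c i
    exact mul_inv_eq_one.1 hc1
  have hconjp : ∀ g : G, (g * x * g⁻¹) ^ p = 1 := fun g => by rw [conj_pow, hxp, mul_one, mul_inv_cancel]
  have hσpow : ∀ g : G, σ (g * x * g⁻¹) ^ p = 1 := fun g => by rw [← map_pow, hconjp, map_one]
  -- the point of an element
  have hconj_fix : ∀ g : G, σ (g * x * g⁻¹) *ᵥ (σ g *ᵥ nu ![(1 : k), 0]) = σ g *ᵥ nu ![(1 : k), 0] := fun g => by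
    rw [Matrix.mulVec_mulVec, ← map_mul, inv_mul_cancel_right, map_mul, ← Matrix.mulVec_mulVec, hσx, hinf]
  have hpoint : ∀ g : G, (∃ c : k, c ≠ 0 ∧ σ g *ᵥ nu ![(1 : k), 0] = c • nu ![(1 : k), 0]) ∨
      ∃ c s : k, c ≠ 0 ∧ σ g *ᵥ nu ![(1 : k), 0] = c • nu ![s, 1] := by
    intro g
    have h0 : σ g *ᵥ nu ![(1 : k), 0] ≠ 0 := fun h => hinf0 (by
      have := congrArg (σ g⁻¹ *ᵥ ·) h
      simp only [Matrix.mulVec_mulVec, (hσinv g).1, Matrix.one_mulVec, Matrix.mulVec_zero] at this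
      exact this)
    rcases iso_zero_or_nu h2 (v := σ g *ᵥ nu ![(1 : k), 0]) (by rw [hiso]; simp [qB, nu]) with ⟨c, hc⟩ | ⟨c, s, hc⟩
    · exact Or.inl ⟨c, fun h => h0 (by rw [hc, h, zero_smul]), hc⟩
    · exact Or.inr ⟨c, s, fun h => h0 (by rw [hc, h, zero_smul]), hc⟩
  have hfixinf : ∀ (g : G) (c : k), c ≠ 0 → σ g *ᵥ nu ![(1 : k), 0] = c • nu ![(1 : k), 0] →
      ∃ t, σ (g * x * g⁻¹) = sq3 (up t) := fun g c hc hg =>
    eq_up_of_fix hp _ (hσpow g) (hiso _) 1 (by
      have h := hconj_fix g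
      rw [hg, Matrix.mulVec_smul] at h
      rw [one_smul]; exact smul_right_injective _ hc h)
  have hlow : ∀ (g : G) (c s : k), c ≠ 0 → σ g *ᵥ nu ![(1 : k), 0] = c • nu ![s, 1] →
      ∃ t, t ∈ S ∧ t ≠ 0 ∧ σ (g * x * g⁻¹) = sq3 (up s) * sq3 (low t) * sq3 (up (-s)) := by
    intro g c s hc hg
    let σ' : G →* Matrix (Fin 3) (Fin 3) k :=
      { toFun := fun a => sq3 (up (-s)) * σ a * sq3 (up s)
        map_one' := by rw [map_one, mul_one, sq3_up_mul h2, neg_add_cancel, sq3_up_zero]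
        map_mul' := fun a b => by
          rw [map_mul]
          simp only [mul_assoc]
          rw [← mul_assoc (sq3 (up s)), sq3_up_mul h2, add_neg_cancel, sq3_up_zero, one_mul] }
    have hval : ∀ a, σ' a = sq3 (up (-s)) * σ a * sq3 (up s) := fun a => rfl
    have hx' : σ' x = sq3 (up 1) := by rw [hval, hσx, sq3_up_mul h2, sq3_up_mul h2]; ring_nf
    obtain ⟨t, ht⟩ := eq_low_of_fix (p := p) h2 (hpp.odd_of_ne_two (by omega)) (σ' (g * x * g⁻¹))
      (by rw [← map_pow, hconjp, map_one])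
      (fun v w => by
        simp only [hval, ← Matrix.mulVec_mulVec]
        rw [qB_sq3 h2, hiso, qB_sq3 h2, det_up, det_up]; ring)
      1 (by
        have h := hconj_fix g
        rw [hg, Matrix.mulVec_smul] at h
        rw [hval]
        simp only [← Matrix.mulVec_mulVec]
        rw [hshift, zero_add, smul_right_injective _ hc h, hshift, add_neg_cancel, one_smul])
    have hback : σ (g * x * g⁻¹) = sq3 (up s) * σ' (g * x * g⁻¹) * sq3 (up (-s)) := by
      rw [hval]
      generalize σ (g * x * g⁻¹) = A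
      simp only [mul_assoc, sq3_up_mul h2, add_neg_cancel, sq3_up_zero, mul_one]
      rw [← mul_assoc, sq3_up_mul h2, add_neg_cancel, sq3_up_zero, one_mul]
    refine ⟨t, low_param_mem (p := p) hp hsq σ' x (g * x * g⁻¹) hx' t ht, fun h0 => ?_, ?_⟩
    · have h1 : σ (g * x * g⁻¹) = σ 1 := by
        have he : σ' (g * x * g⁻¹) = 1 := by
          rw [ht, h0, show low (0 : k) = 1 by ext i j; fin_cases i <;> fin_cases j <;> simp [low], sq3_one]
        rw [hback, he, map_one, mul_one, sq3_up_mul h2, add_neg_cancel, sq3_up_zero]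
      have h3 := hinjp _ _ (hconjp g) (one_pow p) h1
      rw [mul_inv_eq_one, mul_eq_left] at h3
      rw [h3, orderOf_one] at hx
      exact hpp.ne_one hx.symm
    · rw [hback, ht]
  -- an element moving infinity
  obtain ⟨g0, c0, s0, hc0, hg0⟩ : ∃ (g : G) (c s : k), c ≠ 0 ∧ σ g *ᵥ nu ![(1 : k), 0] = c • nu ![s, 1] := by
    by_contra hcon
    refine hnn ⟨fun a ha g => ?_⟩
    have hy : g * x * g⁻¹ ∈ Subgroup.zpowers x := by
      rcases hpoint g with ⟨c, hc, h⟩ | h
      · obtain ⟨t, ht⟩ := hfixinf g c hc h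
        refine hnn' _ (hconjp g) ?_
        have := hinjp ((g * x * g⁻¹) * x * (g * x * g⁻¹)⁻¹) x (hconjp _) hxp (by
          rw [map_mul, map_mul, hσx, ht, sq3_up_mul h2, add_comm t 1, ← sq3_up_mul h2, mul_assoc, ← ht,
            (hσinv _).2, mul_one])
        exact mul_inv_eq_iff_eq_mul.1 this
      · exact absurd ⟨g, h⟩ hcon
    obtain ⟨i, rfl⟩ := Subgroup.mem_zpowers_iff.1 ha
    rw [← conj_zpow]
    exact Subgroup.zpow_mem _ hy i
  obtain ⟨a0, ha0S, ha0, hy0⟩ := hlow g0 c0 s0 hc0 hg0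
  -- traces
  have htr : ∀ g : G, Matrix.trace (σ (x * (g * x * g⁻¹))) ∈ S := by
    intro g
    rcases hpoint g with ⟨c, hc, h⟩ | ⟨c, s, hc, h⟩
    · obtain ⟨t, ht⟩ := hfixinf g c hc h
      rw [map_mul, hσx, ht, sq3_up_mul h2, trace_sq3, det_up, show (up ((1 : k) + t)).trace = (2 : ℕ) by
        simp [up, Matrix.trace, Fin.sum_univ_two]; norm_num]
      exact sub_mem (pow_mem (hnatS 2) 2) (one_mem S)
    · obtain ⟨t, htS, -, ht⟩ := hlow g c s hc h
      rw [map_mul, hσx, ht, ← sq3_mul h2, ← sq3_mul h2, ← sq3_mul h2, trace_sq3, Matrix.det_mul, Matrix.det_mul,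
        Matrix.det_mul, det_up, det_up, det_up, det_low,
        show (up (1 : k) * (up s * low t * up (-s))).trace = (2 : ℕ) + t by
          simp [up, low, Matrix.trace, Matrix.mul_apply, Fin.sum_univ_two]; ring]
      simp only [mul_one]
      exact sub_mem (pow_mem (add_mem (hnatS 2) htS) 2) (one_mem S)
  have hdiff : ∀ (g : G) (c s : k), c ≠ 0 → σ g *ᵥ nu ![(1 : k), 0] = c • nu ![s, 1] → s - s0 ∈ S := by
    intro g c s hc hg
    obtain ⟨t, htS, ht0, ht⟩ := hlow g c s hc hg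
    have hq : ∀ j : ℕ, (((2 : k) - a0 * t * (s + (j : k) - s0) ^ 2) ^ 2 - 1) ∈ S := by
      intro j
      have hmem := htr (g0⁻¹ * (x ^ j * g))
      have e : x * ((g0⁻¹ * (x ^ j * g)) * x * (g0⁻¹ * (x ^ j * g))⁻¹) =
          g0⁻¹ * ((g0 * x * g0⁻¹) * (x ^ j * (g * x * g⁻¹) * (x ^ j)⁻¹)) * g0 := by group
      rw [e, map_mul, map_mul, Matrix.trace_mul_comm, ← mul_assoc, (hσinv g0).2, one_mul, map_mul, hy0, map_mul, map_mul] at hmem
      have hinvj : σ (x ^ j)⁻¹ = sq3 (up (-(j : k))) := by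
        calc σ (x ^ j)⁻¹ = σ (x ^ j)⁻¹ * (sq3 (up (j : k)) * sq3 (up (-(j : k)))) := by
              rw [sq3_up_mul h2, add_neg_cancel, sq3_up_zero, mul_one]
          _ = sq3 (up (-(j : k))) := by rw [← mul_assoc, ← hσxn, (hσinv _).1, one_mul]
      rw [hσxn, ht, hinvj] at hmem
      simp only [← sq3_mul h2, trace_sq3, Matrix.det_mul, det_up, det_low, mul_one] at hmem
      convert hmem using 3
      simp [up, low, Matrix.trace, Matrix.mul_apply, Fin.sum_univ_two]
      ring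
    have hcomb : (48 : ℕ) * (a0 * t) ^ 2 * (s - s0 + (3 : ℕ)) ∈ S := by
      have h := add_mem (sub_mem (hq 5) (add_mem (hq 4) (hq 4))) (sub_mem (add_mem (hq 2) (hq 2)) (hq 1))
      convert h using 1
      push_cast
      ring
    have h48 : ((48 : ℕ) : k) * (a0 * t) ^ 2 ≠ 0 := by
      refine mul_ne_zero (fun h => ?_) (pow_ne_zero _ (mul_ne_zero ha0 ht0))
      have h48' := (CharP.cast_eq_zero_iff k p 48).1 h
      have : p ∣ 2 ^ 4 * 3 := by norm_num; exact h48'
      rcases hpp.dvd_mul.1 this with h | h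
      · have := Nat.le_of_dvd (by norm_num) (hpp.dvd_of_dvd_pow h); omega
      · have := Nat.le_of_dvd (by norm_num) h; omega
    have h := mul_mem (inv_mem (mul_mem (hnatS 48) (pow_mem (mul_mem ha0S htS) 2))) hcomb
    rw [← mul_assoc, inv_mul_cancel₀ h48, one_mul] at h
    simpa using sub_mem h (hnatS 3)
  -- coordinates with the orbit over the prime field
  let σ1 : G →* Matrix (Fin 3) (Fin 3) k :=
    { toFun := fun a => sq3 (up (-s0)) * σ a * sq3 (up s0)
      map_one' := by rw [map_one, mul_one, sq3_up_mul h2, neg_add_cancel, sq3_up_zero]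
      map_mul' := fun a b => by
        rw [map_mul]
        simp only [mul_assoc]
        rw [← mul_assoc (sq3 (up s0)), sq3_up_mul h2, add_neg_cancel, sq3_up_zero, one_mul] }
  have hσ1 : ∀ a, σ1 a = sq3 (up (-s0)) * σ a * sq3 (up s0) := fun a => rfl
  have hσ1back : ∀ a, σ a = sq3 (up s0) * σ1 a * sq3 (up (-s0)) := fun a => by
    rw [hσ1]
    simp only [mul_assoc, sq3_up_mul h2, add_neg_cancel, sq3_up_zero, mul_one]
    rw [← mul_assoc, sq3_up_mul h2, add_neg_cancel, sq3_up_zero, one_mul]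
  have hiso1 : ∀ g v w, qB (σ1 g *ᵥ v) (σ1 g *ᵥ w) = qB v w := fun g v w => by
    simp only [hσ1, ← Matrix.mulVec_mulVec]
    rw [qB_sq3 h2, hiso, qB_sq3 h2, det_up, det_up]; ring
  have hσ1x : σ1 x = sq3 (up 1) := by rw [hσ1, hσx, sq3_up_mul h2, sq3_up_mul h2]; ring_nf
  have horb : ∀ g : G, ∃ (c : k) (q : Fin 2 → ZMod p), c ≠ 0 ∧
      σ1 g *ᵥ nu ![(1 : k), 0] = c • nu (fun i => ι (q i)) := by
    intro g
    have e : σ1 g *ᵥ nu ![(1 : k), 0] = sq3 (up (-s0)) *ᵥ (σ g *ᵥ nu ![(1 : k), 0]) := by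
      rw [hσ1]; simp only [← Matrix.mulVec_mulVec]; rw [hinf]
    rcases hpoint g with ⟨c, hc, h⟩ | ⟨c, s, hc, h⟩
    · refine ⟨c, ![1, 0], hc, ?_⟩
      rw [e, h, Matrix.mulVec_smul, hinf]
      congr 1
      funext i; fin_cases i <;> simp [nu]
    · obtain ⟨z, hz⟩ := hdiff g c s hc h
      refine ⟨c, ![z, 1], hc, ?_⟩
      rw [e, h, Matrix.mulVec_smul, hshift]
      congr 1
      funext i; fin_cases i <;> simp [nu, hz, sub_eq_add_neg]
  have hP0 : ∃ (g : G) (c : k), c ≠ 0 ∧ σ1 g *ᵥ nu ![(1 : k), 0] = c • nu ![(0 : k), 1] := by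
    refine ⟨g0, c0, hc0, ?_⟩
    rw [hσ1]; simp only [← Matrix.mulVec_mulVec]
    rw [hinf, hg0, Matrix.mulVec_smul, hshift, add_neg_cancel]
  have hP1 : ∃ (g : G) (c : k), c ≠ 0 ∧ σ1 g *ᵥ nu ![(1 : k), 0] = c • nu ![(1 : k), 1] := by
    obtain ⟨g, c, hc, h⟩ := hP0
    refine ⟨x * g, c, hc, ?_⟩
    rw [map_mul, ← Matrix.mulVec_mulVec, h, Matrix.mulVec_smul, hσ1x, hshift, zero_add]
  let lift : Matrix (Fin 2) (Fin 2) (ZMod p) → Matrix (Fin 2) (Fin 2) k := fun m => m.map ι
  have hlmul : ∀ a b, lift (a * b) = lift a * lift b := fun a b => Matrix.map_mul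
  have hl1 : lift 1 = 1 := Matrix.map_one _ (map_zero _) (map_one _)
  have hldet : ∀ a, (lift a).det = ι a.det := fun a => (RingHom.map_det ι a).symm
  have hlvec : ∀ a (q : Fin 2 → ZMod p), lift a *ᵥ (fun i => ι (q i)) = fun i => ι ((a *ᵥ q) i) := fun a q => by
    funext i; exact ((RingHom.map_mulVec ι a q i)).symm
  -- every element is a square
  have hshape : ∀ g : G, ∃ (m : GL (Fin 2) (ZMod p)) (κ : k), κ ≠ 0 ∧ σ1 g = κ • sq3 (lift m.1) := by
    intro g
    have himg : ∀ (v : Fin 3 → k), (∃ (h : G) (c : k), c ≠ 0 ∧ σ1 h *ᵥ nu ![(1 : k), 0] = c • v) →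
        ∃ (c : k) (q : Fin 2 → ZMod p), c ≠ 0 ∧ σ1 g *ᵥ v = c • nu (fun i => ι (q i)) := by
      rintro v ⟨h, c, hc, hv⟩
      obtain ⟨d, q, hd, hq⟩ := horb (g * h)
      refine ⟨c⁻¹ * d, q, mul_ne_zero (inv_ne_zero hc) hd, ?_⟩
      rw [map_mul, ← Matrix.mulVec_mulVec, hv, Matrix.mulVec_smul] at hq
      rw [← smul_smul, ← hq, inv_smul_smul₀ hc]
    obtain ⟨d1, q1, hd1, hq1⟩ := himg (nu ![(1 : k), 0]) ⟨1, 1, one_ne_zero, by rw [map_one, Matrix.one_mulVec, one_smul]⟩
    obtain ⟨d2, q2, hd2, hq2⟩ := himg _ hP0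
    obtain ⟨d3, q3, hd3, hq3⟩ := himg _ hP1
    have hcancel : ∀ (v w : Fin 3 → k), σ1 g *ᵥ v = σ1 g *ᵥ w → v = w := fun v w h => by
      have := congrArg (σ1 g⁻¹ *ᵥ ·) h
      simp only [Matrix.mulVec_mulVec] at this
      rwa [← map_mul, inv_mul_cancel, map_one, Matrix.one_mulVec, Matrix.one_mulVec] at this
    have hnusmul : ∀ (c : k) (q : Fin 2 → k), nu (c • q) = c ^ 2 • nu q := fun c q => by
      funext i; fin_cases i <;> simp [nu] <;> ring
    have hdep : ∀ (v w : Fin 3 → k) (dv dw : k) (qv qw : Fin 2 → ZMod p), dv ≠ 0 → dw ≠ 0 →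
        σ1 g *ᵥ v = dv • nu (fun i => ι (qv i)) → σ1 g *ᵥ w = dw • nu (fun i => ι (qw i)) →
        (∀ c : k, v ≠ c • w) → ∀ l : ZMod p, qv ≠ l • qw := by
      intro v w dv dw qv qw hdv hdw hv hw hvw l hl
      refine hvw (dv * (ι l) ^ 2 * dw⁻¹) (hcancel _ _ ?_)
      rw [Matrix.mulVec_smul, hv, hw, smul_smul, mul_assoc (dv * (ι l) ^ 2), inv_mul_cancel₀ hdw, mul_one, ← smul_smul,
        ← hnusmul, hl]
      congr 2
      funext i; simp [map_mul]
    have e10 : ∀ c : k, nu ![(1 : k), 0] ≠ c • nu ![(0 : k), 1] := hne 0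
    have e30 : ∀ c : k, nu ![(1 : k), 1] ≠ c • nu ![(0 : k), 1] := fun c h => by
      have h1 := congrFun h 1; simp [nu] at h1
    have e31 : ∀ c : k, nu ![(1 : k), 1] ≠ c • nu ![(1 : k), 0] := fun c h => by
      have h1 := congrFun h 1; simp [nu] at h1
    have n12 := hdep _ _ _ _ _ _ hd1 hd2 hq1 hq2 e10
    have n32 := hdep _ _ _ _ _ _ hd3 hd2 hq3 hq2 e30
    have n31 := hdep _ _ _ _ _ _ hd3 hd1 hq3 hq1 e31
    have hq20 : q2 ≠ 0 := by
      intro h
      rw [h] at hq2
      refine hnu0 0 (hcancel _ _ (hq2.trans ?_))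
      rw [Matrix.mulVec_zero]
      have : nu (fun i => ι ((0 : Fin 2 → ZMod p) i)) = 0 := by funext i; fin_cases i <;> simp [nu]
      rw [this, smul_zero]
    set D := q1 0 * q2 1 - q1 1 * q2 0 with hD
    have hD0 : D ≠ 0 := by
      intro h0
      rw [hD, sub_eq_zero] at h0
      by_cases h21 : q2 1 = 0
      · have h20 : q2 0 ≠ 0 := fun h => hq20 (by funext i; fin_cases i <;> simp [h, h21])
        refine n12 (q1 0 / q2 0) (funext fun i => ?_)
        fin_cases i
        · simp [h20]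
        · rw [h21, mul_zero, eq_comm, mul_eq_zero] at h0
          simp [h21, h0.resolve_right h20]
      · refine n12 (q1 1 / q2 1) (funext fun i => ?_)
        fin_cases i
        · simp; field_simp; linear_combination h0
        · simp [h21]
    set al := (q3 0 * q2 1 - q3 1 * q2 0) / D with hal
    set be := (q1 0 * q3 1 - q1 1 * q3 0) / D with hbe
    have hq3e : q3 = al • q1 + be • q2 := by
      funext i
      fin_cases i <;> simp [al, be] <;> field_simp <;> simp only [D] <;> ring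
    have hal0 : al ≠ 0 := fun h => n32 be (by rw [hq3e, h, zero_smul, zero_add])
    have hbe0 : be ≠ 0 := fun h => n31 al (by rw [hq3e, h, zero_smul, add_zero])
    let m0 : Matrix (Fin 2) (Fin 2) (ZMod p) := !![al * q1 0, be * q2 0; al * q1 1, be * q2 1]
    have hm0 : m0.det ≠ 0 := by
      simp [m0, Matrix.det_fin_two]
      intro h
      have : al * be * D = 0 := by rw [hD]; linear_combination h
      simp [hal0, hbe0, hD0] at this
    let m := Matrix.GeneralLinearGroup.mkOfDetNeZero m0 hm0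
    have hinvm : lift (m⁻¹).1 * lift m.1 = 1 ∧ lift m.1 * lift (m⁻¹).1 = 1 := by
      constructor <;> rw [← hlmul, ← Units.val_mul] <;> simp [hl1]
    have hM : ∀ (v : Fin 2 → ZMod p) (d : k) (q : Fin 2 → ZMod p) (c : ZMod p), c ≠ 0 → m0 *ᵥ v = c • q →
        σ1 g *ᵥ nu (fun i => ι (v i)) = d • nu (fun i => ι (q i)) →
        (sq3 (lift (m⁻¹).1) * σ1 g) *ᵥ nu (fun i => ι (v i)) = (d * ((ι c) ^ 2)⁻¹) • nu (fun i => ι (v i)) := by
      intro v d q c hc hmv hgv
      have hιc : ι c ≠ 0 := fun h => hc (ι.injective (h.trans (map_zero ι).symm))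
      have hq' : nu (fun i => ι (q i)) = ((ι c) ^ 2)⁻¹ • nu (lift m.1 *ᵥ fun i => ι (v i)) := by
        rw [hlvec, show (m.1 *ᵥ v) = c • q from hmv]
        rw [show (fun i => ι ((c • q) i)) = ι c • fun i => ι (q i) by funext i; simp, hnusmul,
          inv_smul_smul₀ (pow_ne_zero 2 hιc)]
      rw [← Matrix.mulVec_mulVec, hgv, hq', smul_smul, Matrix.mulVec_smul, sq3_nu h2, Matrix.mulVec_mulVec, hinvm.1,
        Matrix.one_mulVec]
    have v1 : nu (fun i => ι ((![1, 0] : Fin 2 → ZMod p) i)) = nu ![(1 : k), 0] := by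
      congr 1; funext i; fin_cases i <;> simp
    have v2 : nu (fun i => ι ((![0, 1] : Fin 2 → ZMod p) i)) = nu ![(0 : k), 1] := by
      congr 1; funext i; fin_cases i <;> simp
    have v3 : nu (fun i => ι ((![1, 1] : Fin 2 → ZMod p) i)) = nu ![(1 : k), 1] := by
      congr 1; funext i; fin_cases i <;> simp
    have k1 := hM ![1, 0] d1 q1 al hal0 (by funext i; fin_cases i <;> simp [m0, Matrix.mulVec, dotProduct, Fin.sum_univ_two])
      (by rw [v1]; exact hq1)
    have k2 := hM ![0, 1] d2 q2 be hbe0 (by funext i; fin_cases i <;> simp [m0, Matrix.mulVec, dotProduct, Fin.sum_univ_two])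
      (by rw [v2]; exact hq2)
    have k3 := hM ![1, 1] d3 q3 1 one_ne_zero
      (by rw [one_smul, hq3e]; funext i; fin_cases i <;> simp [m0, Matrix.mulVec, dotProduct, Fin.sum_univ_two])
      (by rw [v3]; exact hq3)
    rw [v1] at k1; rw [v2] at k2; rw [v3] at k3
    have hdetk : (lift (m⁻¹).1).det ≠ 0 := fun h => by
      have := congrArg Matrix.det hinvm.1
      rw [Matrix.det_mul, h, zero_mul, Matrix.det_one] at this
      exact zero_ne_one this
    have hs := scalar_of_fix_three h2 _ ((lift (m⁻¹).1).det ^ 2) (pow_ne_zero 2 hdetk)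
      (fun v w => by rw [← Matrix.mulVec_mulVec, ← Matrix.mulVec_mulVec, qB_sq3 h2, hiso1]) _ _ _ k1 k2 k3
    rw [map_one, one_pow, inv_one, mul_one] at hs
    refine ⟨m, d3, hd3, ?_⟩
    have := congrArg (sq3 (lift m.1) * ·) hs
    simp only [← mul_assoc, ← sq3_mul h2, hinvm.2, sq3_one, one_mul, Matrix.mul_smul, mul_one] at this
    exact this
  have hsq3inj : ∀ (a : Matrix (Fin 2) (Fin 2) (ZMod p)) (c : k), c ≠ 0 → sq3 (lift a) = c • 1 →
      a 0 1 = 0 ∧ a 1 0 = 0 ∧ a 0 0 = a 1 1 := by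
    intro a c hc h
    have e01 := congrFun (congrFun h 0) 2
    have e10 := congrFun (congrFun h 2) 0
    have e00 := congrFun (congrFun h 0) 0
    have e11 := congrFun (congrFun h 1) 1
    simp [sq3, lift, h2] at e01 e10 e00 e11
    have a01 : a 0 1 = 0 := e01
    have a10 : a 1 0 = 0 := e10
    refine ⟨a01, a10, ?_⟩
    rw [a01, map_zero, zero_mul, add_zero, ← e00, sq] at e11
    have h00 : ι (a 0 0) ≠ 0 := fun h => hc (by rw [← e00, h]; simp)
    exact (ι.injective (mul_left_cancel₀ h00 e11)).symm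
  choose m κ hκ hm using hshape
  have huniq : ∀ (g : G) (m' : GL (Fin 2) (ZMod p)) (κ' : k), κ' ≠ 0 → σ1 g = κ' • sq3 (lift m'.1) →
      Matrix.ProjGenLinGroup.mk (m g) = Matrix.ProjGenLinGroup.mk m' := by
    intro g m' κ' hκ' hg
    have hA : sq3 (lift ((m g)⁻¹ * m').1) = (κ'⁻¹ * κ g) • (1 : Matrix (Fin 3) (Fin 3) k) := by
      have h := (hm g).symm.trans hg
      rw [Units.val_mul, hlmul, sq3_mul h2, ← inv_smul_smul₀ hκ' (sq3 (lift m'.1)), ← h, smul_smul, Matrix.mul_smul,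
        ← sq3_mul h2, ← hlmul, ← Units.val_mul, inv_mul_cancel, Units.val_one, hl1, sq3_one]
    obtain ⟨a01, a10, a00⟩ := hsq3inj _ _ (mul_ne_zero (inv_ne_zero hκ') (hκ g)) hA
    rw [← inv_mul_eq_one, ← map_inv, ← map_mul, Matrix.ProjGenLinGroup.mk_eq_one, Subgroup.mem_center_iff]
    intro b
    generalize (m g)⁻¹ * m' = A at a01 a10 a00 ⊢
    ext i j
    fin_cases i <;> fin_cases j <;> simp [Matrix.mul_apply, Fin.sum_univ_two, a01, a10, a00, mul_comm]
  let θ : G →* Matrix.ProjGenLinGroup (Fin 2) (ZMod p) :=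
    MonoidHom.mk' (fun g => Matrix.ProjGenLinGroup.mk (m g)) fun a b => by
      rw [← map_mul]
      refine huniq (a * b) (m a * m b) (κ a * κ b) (mul_ne_zero (hκ a) (hκ b)) ?_
      rw [map_mul, hm a, hm b, Units.val_mul, hlmul, sq3_mul h2, Matrix.smul_mul, Matrix.mul_smul, smul_smul]
  have hker : θ.ker = Subgroup.center G := by
    ext g
    rw [MonoidHom.mem_ker]
    constructor
    · intro h
      change Matrix.ProjGenLinGroup.mk (m g) = 1 at h
      rw [Matrix.ProjGenLinGroup.mk_eq_one, Matrix.GeneralLinearGroup.center_eq_range_scalar] at h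
      obtain ⟨u, hu⟩ := h
      refine hscal g ⟨κ g * ι u ^ 2, ?_⟩
      have hlu : lift (m g).1 = ι u • 1 := by
        rw [← hu]
        ext i j
        fin_cases i <;> fin_cases j <;> simp [lift]
      rw [hσ1back, hm, hlu, sq3_smul, sq3_one, smul_smul, Matrix.mul_smul, Matrix.smul_mul, mul_one, sq3_up_mul h2,
        add_neg_cancel, sq3_up_zero]
    · intro hg
      show Matrix.ProjGenLinGroup.mk (m g) = 1
      rw [huniq g 1 1 one_ne_zero (by
        rw [hσ1, hcen g hg, mul_one, sq3_up_mul h2, neg_add_cancel, sq3_up_zero, one_smul, Units.val_one, hl1, sq3_one]),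
        map_one]
  set W := (Matrix.SpecialLinearGroup.toPGL : Matrix.SpecialLinearGroup (Fin 2) (ZMod p) →* _).range with hW
  have hθx : θ x = Matrix.SpecialLinearGroup.toPGL (uR (1 : ZMod p)) := by
    refine huniq x _ 1 one_ne_zero ?_
    rw [hσ1x, one_smul]
    congr 1
    ext i j; fin_cases i <;> fin_cases j <;> simp [lift, up]
  obtain ⟨z0, hz0⟩ := ha0S
  have hθy : θ (g0 * x * g0⁻¹) = Matrix.SpecialLinearGroup.toPGL (lR z0) := by
    refine huniq _ _ 1 one_ne_zero ?_
    rw [hσ1, hy0, one_smul]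
    simp only [mul_assoc, sq3_up_mul h2, neg_add_cancel, sq3_up_zero, mul_one]
    rw [← mul_assoc, sq3_up_mul h2, neg_add_cancel, sq3_up_zero, one_mul]
    congr 1
    ext i j; fin_cases i <;> fin_cases j <;> simp [lift, low, hz0]
  have hWle : W ≤ θ.range := by
    have h2z : (2 : ZMod p) ≠ 0 := two_ne_zero_of_five_le hp
    have hz : z0 ≠ 0 := fun h => ha0 (by rw [← hz0, h, map_zero])
    have hgens : gens (ZMod p) z0 = ⊤ :=
      gens_eq_top h2z (by rw [Nat.card_zmod]; omega) hz (eq_top_iff.2 fun a _ => Subalgebra.algebraMap_mem _ a)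
    rw [hW, MonoidHom.range_eq_map, ← hgens, gens, MonoidHom.map_closure, Subgroup.closure_le]
    rintro _ ⟨_, (⟨c, rfl⟩ | ⟨c, rfl⟩), rfl⟩
    · refine ⟨x ^ c.val, ?_⟩
      have hp' : ∀ n : ℕ, uR (1 : ZMod p) ^ n = uR (n : ZMod p) := fun n => by
        induction n with
        | zero => simp [uR_zero]
        | succ n ih => rw [pow_succ, ih, ← uR_add, Nat.cast_succ]
      rw [map_pow, hθx, ← map_pow, hp', ZMod.natCast_zmod_val]
      simp
    · refine ⟨(g0 * x * g0⁻¹) ^ c.val, ?_⟩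
      have hp' : ∀ n : ℕ, lR z0 ^ n = lR ((n : ZMod p) * z0) := fun n => by
        induction n with
        | zero => simp [lR_zero]
        | succ n ih => rw [pow_succ, ih, ← lR_add, Nat.cast_succ, add_mul, one_mul]
      rw [map_pow, hθy, ← map_pow, hp', ZMod.natCast_zmod_val]
      simp
  have hrange : θ.range = W := by
    refine le_antisymm ?_ hWle
    rintro _ ⟨g, rfl⟩
    by_contra hgW
    set M : GL (Fin 2) (ZMod p) := m g
    set δ : (ZMod p)ˣ := Matrix.GeneralLinearGroup.det M with hδ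
    obtain ⟨r, hr⟩ : ∃ r : (ZMod p)ˣ, ∀ y : (ZMod p)ˣ, y ∈ Subgroup.zpowers r := IsCyclic.exists_generator
    obtain ⟨i, hi⟩ := Subgroup.mem_zpowers_iff.1 (hr δ)
    rcases Int.even_or_odd i with ⟨b, hb⟩ | ⟨b, hb⟩
    · -- square determinant
      apply hgW
      set e : (ZMod p)ˣ := (r ^ b)⁻¹
      have hdet1 : ((e : ZMod p) • M.1).det = 1 := by
        rw [Matrix.det_smul, Fintype.card_fin]
        have : ((e ^ 2 * δ : (ZMod p)ˣ) : ZMod p) = 1 := by
          rw [← hi, hb, show e ^ 2 * r ^ (b + b) = 1 by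
            rw [_root_.zpow_add, sq, show e = (r ^ b)⁻¹ from rfl, ← _root_.mul_inv_rev, inv_mul_cancel], Units.val_one]
        simpa [hδ] using this
      refine ⟨⟨_, hdet1⟩, ?_⟩
      show Matrix.ProjGenLinGroup.mk _ = Matrix.ProjGenLinGroup.mk M
      rw [Matrix.ProjGenLinGroup.mk_eq_mk_iff]
      have hev : ((e : ZMod p) * ((e⁻¹ : (ZMod p)ˣ) : ZMod p)) = 1 := e.mul_inv
      refine ⟨e⁻¹, Units.ext ?_⟩
      generalize e⁻¹ = u at hev ⊢
      ext a b'
      rw [Units.val_mul, Matrix.GeneralLinearGroup.coe_scalar, Matrix.scalar_apply, Matrix.mul_diagonal]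
      show (e : ZMod p) * M a b' * (u : ZMod p) = M a b'
      linear_combination (M a b' : ZMod p) * hev
    · -- a nonsquare determinant gives a diagonal primitive element
      set ec : (ZMod p)ˣ := (r ^ b)⁻¹
      have hdr : IsUnit (!![(r : ZMod p), 0; 0, 1] : Matrix (Fin 2) (Fin 2) (ZMod p)).det := by
        simp [Matrix.det_fin_two]
      let dr : GL (Fin 2) (ZMod p) := Matrix.GeneralLinearGroup.mk'' _ hdr
      have hdetS : ((dr⁻¹ * M).1.det * (ec : ZMod p) ^ 2) = 1 := by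
        have hd' : (Matrix.GeneralLinearGroup.det dr) = r := by
          ext; simp [dr, Matrix.det_fin_two]
        have : ((Matrix.GeneralLinearGroup.det (dr⁻¹ * M) * ec ^ 2 : (ZMod p)ˣ) : ZMod p) = 1 := by
          rw [map_mul, map_inv, hd', ← hδ, ← hi, hb,
            show r⁻¹ * r ^ (2 * b + 1) * ec ^ 2 = 1 by
              rw [two_mul, _root_.zpow_add, _root_.zpow_add, zpow_one, mul_comm _ r, inv_mul_cancel_left, sq,
                show ec = (r ^ b)⁻¹ from rfl, ← _root_.mul_inv_rev, mul_inv_cancel], Units.val_one]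
        simpa using this
      let sl : Matrix.SpecialLinearGroup (Fin 2) (ZMod p) :=
        ⟨(ec : ZMod p) • (dr⁻¹ * M).1, by rw [Matrix.det_smul, Fintype.card_fin, mul_comm]; exact hdetS⟩
      obtain ⟨gs, hgs⟩ := hWle ⟨sl, rfl⟩
      have hsl : Matrix.SpecialLinearGroup.toPGL sl = Matrix.ProjGenLinGroup.mk (dr⁻¹ * M) := by
        show Matrix.ProjGenLinGroup.mk _ = _
        rw [Matrix.ProjGenLinGroup.mk_eq_mk_iff]
        have hev : ((ec : ZMod p) * ((ec⁻¹ : (ZMod p)ˣ) : ZMod p)) = 1 := ec.mul_inv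
        refine ⟨ec⁻¹, Units.ext ?_⟩
        generalize ec⁻¹ = u at hev ⊢
        ext a b'
        rw [Units.val_mul, Matrix.GeneralLinearGroup.coe_scalar, Matrix.scalar_apply, Matrix.mul_diagonal]
        show (ec : ZMod p) * (dr⁻¹ * M).1 a b' * (u : ZMod p) = (dr⁻¹ * M).1 a b'
        linear_combination ((dr⁻¹ * M).1 a b' : ZMod p) * hev
      set h := g * gs⁻¹
      have hθh : θ h = Matrix.ProjGenLinGroup.mk dr := by
        rw [map_mul, map_inv, hgs, hsl]
        show Matrix.ProjGenLinGroup.mk M * _ = _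
        rw [← map_inv, ← map_mul, _root_.mul_inv_rev, inv_inv, mul_inv_cancel_left]
      have hrp : orderOf (r : ZMod p) = p - 1 := by
        rw [orderOf_units, orderOf_eq_card_of_forall_mem_zpowers hr, Nat.card_units, Nat.card_zmod]
      set n := (r : ZMod p).val with hn
      have hnr : (n : ZMod p) = r := ZMod.natCast_zmod_val _
      refine hprim h n ?_ (hnr ▸ hrp)
      have hpowu : uR (1 : ZMod p) ^ n = uR (r : ZMod p) := by
        rw [← hnr]
        induction n with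
        | zero => simp [uR_zero]
        | succ n ih => rw [pow_succ, ih, ← uR_add, Nat.cast_succ]
      have hθ : θ (h * x * h⁻¹) = θ (x ^ n) := by
        rw [map_mul, map_mul, map_inv, hθh, hθx, map_pow, hθx, ← map_pow, hpowu, mul_inv_eq_iff_eq_mul]
        show Matrix.ProjGenLinGroup.mk _ * Matrix.ProjGenLinGroup.mk _ =
          Matrix.ProjGenLinGroup.mk _ * Matrix.ProjGenLinGroup.mk _
        rw [← map_mul, ← map_mul]
        congr 1
        ext a b'
        fin_cases a <;> fin_cases b' <;>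
          simp [dr, Matrix.mul_apply, Fin.sum_univ_two, Matrix.SpecialLinearGroup.toGL]
      have hmem : (h * x * h⁻¹) * (x ^ n)⁻¹ ∈ θ.ker := by
        rw [MonoidHom.mem_ker, map_mul, hθ, map_inv, mul_inv_cancel]
      rw [hker] at hmem
      refine hinjp _ _ (hconjp h) (by rw [← pow_mul, mul_comm, pow_mul, hxp, one_pow]) ?_
      have := hcen _ hmem
      rw [map_mul] at this
      calc σ (h * x * h⁻¹) = σ (h * x * h⁻¹) * σ (x ^ n)⁻¹ * σ (x ^ n) := by
            rw [mul_assoc (σ (h * x * h⁻¹)), (hσinv _).1, mul_one]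
        _ = σ (x ^ n) := by rw [this, one_mul]
  have hWrange : (Matrix.ProjectiveSpecialLinearGroup.toPGL :
      Matrix.ProjectiveSpecialLinearGroup (Fin 2) (ZMod p) →* _).range = W := by
    ext z
    constructor
    · rintro ⟨a, rfl⟩
      induction a using QuotientGroup.induction_on with
      | H s => exact ⟨s, rfl⟩
    · rintro ⟨s, rfl⟩; exact ⟨QuotientGroup.mk s, rfl⟩
  exact ⟨(QuotientGroup.quotientMulEquivOfEq hker.symm).trans ((QuotientGroup.quotientKerEquivRange θ).trans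
    ((MulEquiv.subgroupCongr (hrange.trans hWrange.symm)).trans
      (MonoidHom.ofInjective Matrix.ProjectiveSpecialLinearGroup.toPGL_injective).symm))⟩

end CfsgLib.HalfDeg
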