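import Cfsg.Agent.HalfDeg.TruncExp
import Cfsg.Agent.HalfDeg.Model

/-!
An equivariant idempotent of rank three on the endomorphisms of a small module of a `p`-local group.
-/

set_option autoImplicit false
set_option linter.unusedSectionVars false
set_option linter.style.haveILetI false

namespace CfsgLib.HalfDeg

open Finset

variable {k : Type*} [Field k] {p : ℕ} [Fact p.Prime] [CharP k p]

theorem ee_sub_one_eq {A : Type*} [Ring A] [Algebra k A] (a : A) :
    ∃ w : A, Commute a w ∧ ee k p a - 1 = a * w := by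
  obtain ⟨n, rfl⟩ : ∃ n, p = n + 1 := ⟨p - 1, by have := (Fact.out : p.Prime).two_le; omega⟩
  refine ⟨∑ i ∈ range n, (((i + 1).factorial : k)⁻¹) • a ^ i,
    Commute.sum_right _ _ _ fun i _ => ((Commute.refl a).pow_right i).smul_right _, ?_⟩
  rw [ee, Finset.sum_range_succ', Finset.mul_sum]
  simp only [pow_zero, Nat.factorial_zero, Nat.cast_one, inv_one, one_smul, add_sub_cancel_right, mul_smul_comm,
    pow_succ']

theorem commute_ee {A : Type*} [Ring A] [Algebra k A] {a b : A} (h : Commute b a) : Commute b (ee k p a) :=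
  Commute.sum_right _ _ _ fun i _ => (h.pow_right i).smul_right _

variable {U : Type*} [AddCommGroup U] [Module k U] [FiniteDimensional k U] {G : Type*} [Group G]

theorem exists_equivariant_log (ρ : Representation k G U) {x : G} (hxp : x ^ p = 1)
    (hdim : 2 * Module.finrank k U < p) (hne : ρ x ≠ 1) :
    ∃ E : Module.End k U, E ≠ 0 ∧ E ^ Module.finrank k U = 0 ∧ ee k p E = ρ x ∧
      ∀ (h : G) (n : ℕ), h * x * h⁻¹ = x ^ n → ρ h * E = (n : k) • (E * ρ h) := by
  classical
  set L := Module.finrank k U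
  have hL : 2 * L ≤ p + 1 := by omega
  haveI : CharP (Module.End k U) p := by
    haveI : Nontrivial U := by
      by_contra hn
      rw [not_nontrivial_iff_subsingleton] at hn
      exact hne (LinearMap.ext fun v => Subsingleton.elim _ _)
    exact charP_of_injective_algebraMap (FaithfulSMul.algebraMap_injective k (Module.End k U)) p
  have hnil : (ρ x - 1) ^ L = 0 := by
    have h : IsNilpotent (ρ x - 1) := ⟨p, by
      rw [sub_pow_char_of_commute _ (Commute.one_right _), ← map_pow, hxp, map_one, one_pow, sub_self]⟩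
    obtain ⟨m, hm⟩ := h
    rw [← LinearMap.ker_eq_top, eq_top_iff]
    refine le_trans ?_ (Module.End.ker_pow_le_ker_pow_finrank (ρ x - 1) m)
    rw [hm, LinearMap.ker_zero]
  obtain ⟨P, hP, hPL⟩ := exists_log (k := k) (p := p) L hL (ρ x) hnil
  refine ⟨Polynomial.aeval (ρ x) P, fun h0 => hne ?_, hPL, hP, fun h n hn => ?_⟩
  · rw [← hP, h0, ee_zero]
  set E := Polynomial.aeval (ρ x) P
  have hu : ρ h⁻¹ * ρ h = 1 ∧ ρ h * ρ h⁻¹ = 1 := by constructor <;> rw [← map_mul] <;> simp
  let cj : Module.End k U →ₐ[k] Module.End k U := AlgHom.ofLinearMap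
    ((LinearMap.mulLeft k (ρ h)).comp (LinearMap.mulRight k (ρ h⁻¹))) (by simp [hu.2])
    (fun a b => by
      simp only [LinearMap.comp_apply, LinearMap.mulLeft_apply, LinearMap.mulRight_apply, mul_assoc]
      rw [← mul_assoc (ρ h⁻¹), hu.1, one_mul])
  have hcj : ∀ a, cj a = ρ h * (a * ρ h⁻¹) := fun a => rfl
  have hcx : cj (ρ x) = ρ x ^ n := by rw [hcj, ← map_mul, ← map_mul, ← map_pow, ← hn, mul_assoc]
  have hcE : cj E = Polynomial.aeval (ρ x ^ n) P := by
    rw [← hcx, Polynomial.aeval_algHom_apply]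
  have hcomm : Commute (cj E) ((n : k) • E) := by
    rw [hcE, ← Polynomial.aeval_X_pow (R := k) (ρ x), ← Polynomial.aeval_comp]
    exact ((Commute.all (P.comp (Polynomial.X ^ n)) P).map (Polynomial.aeval (ρ x))).smul_right _
  have ha : (cj E) ^ L = 0 := by rw [← map_pow, hPL, map_zero]
  have hb : ((n : k) • E) ^ L = 0 := by rw [smul_pow, hPL, smul_zero]
  have hee : ee k p (cj E) = ee k p ((n : k) • E) := by
    rw [ee_natCast_smul hL hPL, hP, ← ee_map, hP, hcx]
  have h1 : ee k p (cj E + -((n : k) • E)) = 1 := by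
    rw [ee_add hcomm.neg_right hL ha (by rw [neg_pow, hb, mul_zero]), hee,
      ← ee_add (Commute.neg_right (Commute.refl _)) hL hb (by rw [neg_pow, hb, mul_zero]), add_neg_cancel, ee_zero]
  have h2 : cj E + -((n : k) • E) = 0 := eq_zero_of_ee_eq_one (k := k) (p := p) (L := L + L)
    (hcomm.neg_right.add_pow_eq_zero_of_add_le_succ_of_pow_eq_zero ha (by rw [neg_pow, hb, mul_zero]) (by omega)) h1
  rw [← sub_eq_add_neg, sub_eq_zero, hcj] at h2
  have := congrArg (· * ρ h) h2
  simp only [mul_assoc, hu.1, mul_one, smul_mul_assoc] at this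
  exact this

set_option maxHeartbeats 1600000 in
theorem exists_threeProj (ρ : Representation k G U) {x : G} (hxp : x ^ p = 1) (hp : 5 ≤ p)
    (hdim : 2 * Module.finrank k U < p) (hne : ρ x ≠ 1) (H : Subgroup G) [Finite H] (hH : ¬ p ∣ Nat.card H)
    (hnorm : ∀ h ∈ H, ∃ n : ℕ, h * x * h⁻¹ = x ^ n) :
    ∃ π : Module.End k (Module.End k U), π * π = π ∧
      (∀ a b, LinearMap.trace k U (π a * b) = LinearMap.trace k U (a * π b)) ∧
      Module.finrank k (LinearMap.range π) = 3 ∧ Commute π (Representation.linHom ρ ρ x) ∧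
      (∀ h ∈ H, Commute π (Representation.linHom ρ ρ h)) ∧
      (Representation.linHom ρ ρ x - 1) ^ (p - 1) = 0 ∧
      ∃ v ∈ LinearMap.range π,
        (Representation.linHom ρ ρ x - 1) ((Representation.linHom ρ ρ x - 1) v) ≠ 0 := by
  classical
  haveI := Fintype.ofFinite H
  set N := Module.finrank k U with hNdef
  obtain ⟨E, hE0, hEN, hEx, hEh⟩ := exists_equivariant_log ρ hxp hdim hne
  choose nn hnn using fun h : H => hnorm h h.2
  let rr : H → k := fun h => (nn h : k)
  have hrE : ∀ h : H, ρ h * E = rr h • (E * ρ h) := fun h => hEh _ _ (hnn h)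
  have hu : ∀ g : G, ρ g⁻¹ * ρ g = 1 ∧ ρ g * ρ g⁻¹ = 1 := fun g => by
    constructor <;> rw [← map_mul] <;> simp
  have hrmul : ∀ g h : H, rr (g * h) = rr g * rr h := fun g h => by
    have h1 := hrE (g * h)
    rw [show ρ ((g * h : H) : G) = ρ g * ρ h from map_mul ρ _ _, mul_assoc, hrE h, mul_smul_comm, ← mul_assoc,
      hrE g, smul_mul_assoc, smul_smul, mul_assoc, mul_comm (rr h)] at h1
    have h2 := congrArg (fun z => z * (ρ (h : G)⁻¹ * ρ (g : G)⁻¹)) h1
    simp only [smul_mul_assoc, mul_assoc] at h2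
    rw [← mul_assoc (ρ (h : G)), (hu _).2, one_mul, (hu _).2, mul_one] at h2
    exact (smul_left_injective k hE0 h2).symm
  have hr1 : rr 1 = 1 := by
    have h1 := hrE 1
    rw [OneMemClass.coe_one, map_one, one_mul, mul_one] at h1
    exact (smul_left_injective k hE0 ((one_smul k E).trans h1)).symm
  have hr0 : ∀ h, rr h ≠ 0 := fun h h0 => by
    have := hrmul h h⁻¹
    rw [mul_inv_cancel, hr1, h0, zero_mul] at this
    exact one_ne_zero this
  have hrpow : ∀ (h : H) (m : ℕ), ρ h * E ^ m = rr h ^ m • (E ^ m * ρ h) := fun h m => by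
    induction m with
    | zero => simp
    | succ m ih => rw [pow_succ E m, ← mul_assoc, ih, smul_mul_assoc, mul_assoc, hrE, mul_smul_comm, smul_smul,
        ← pow_succ, ← mul_assoc]
  -- averaging
  have hcard : (Fintype.card H : k) ≠ 0 := fun h => hH (by
    rw [Nat.card_eq_fintype_card]; exact (CharP.cast_eq_zero_iff k p _).1 h)
  let avg : ℕ → Module.End k U → Module.End k U := fun m a =>
    (Fintype.card H : k)⁻¹ • ∑ h : H, rr h ^ m • (ρ h * a * ρ (h : G)⁻¹)
  have havg : ∀ (m : ℕ) (a : Module.End k U) (g : H), rr g ^ m • (ρ g * avg m a) = avg m a * ρ g := by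
    intro m a g
    simp only [avg, mul_smul_comm, smul_mul_assoc, smul_comm (rr g ^ m) (Fintype.card H : k)⁻¹]
    congr 1
    rw [Finset.mul_sum, Finset.sum_mul, Finset.smul_sum]
    refine Fintype.sum_equiv (Equiv.mulLeft g) _ _ fun h => ?_
    simp only [Equiv.coe_mulLeft, Subgroup.coe_mul, mul_inv_rev, hrmul, mul_pow, mul_smul_comm, smul_mul_assoc, smul_smul]
    rw [map_mul ρ (g : G), map_mul ρ]
    simp only [mul_assoc, (hu (g : G)).1, mul_one]
  -- the length
  have hex : ∃ l, E ^ l = 0 := ⟨N, hEN⟩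
  set l := Nat.find hex with hldef
  have hEl : E ^ l = 0 := Nat.find_spec hex
  have hlN : l ≤ N := Nat.find_min' hex hEN
  have hl2 : 2 ≤ l := by
    by_contra hl
    refine hE0 ?_
    rw [← pow_one E]
    exact pow_eq_zero_of_le (by omega) hEl
  have hEl1 : E ^ (l - 1) ≠ 0 := Nat.find_min hex (by omega)
  -- the projection onto a complement of the kernel
  set W := LinearMap.ker (E ^ (l - 1)) with hW
  obtain ⟨g0, hg0⟩ := W.subtype.exists_leftInverse_of_injective (Submodule.ker_subtype W)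
  set q0 : Module.End k U := W.subtype.comp g0
  set e0 := 1 - avg 0 q0 with he0
  have hq0W : ∀ w ∈ W, q0 w = w := fun w hw => congrArg Subtype.val (LinearMap.congr_fun hg0 ⟨w, hw⟩)
  have hWinv : ∀ (h : G), h ∈ H → ∀ w ∈ W, ρ h w ∈ W := by
    intro h hh w hw
    rw [hW, LinearMap.mem_ker] at hw ⊢
    have := LinearMap.congr_fun (hrpow ⟨h, hh⟩ (l - 1)) w
    simp only [Module.End.mul_apply, LinearMap.smul_apply, hw, map_zero] at this
    exact (smul_eq_zero.1 this.symm).resolve_left (pow_ne_zero _ (hr0 _))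
  have hqW : ∀ u, avg 0 q0 u ∈ W := fun u => by
    simp only [avg, LinearMap.smul_apply, LinearMap.sum_apply, pow_zero, one_smul]
    exact W.smul_mem _ (W.sum_mem fun h _ => hWinv h h.2 _ (g0 _).2)
  have hqfix : ∀ w ∈ W, avg 0 q0 w = w := fun w hw => by
    simp only [avg, LinearMap.smul_apply, LinearMap.sum_apply, pow_zero, one_smul, Module.End.mul_apply]
    rw [Finset.sum_congr rfl (g := fun _ => w) fun h _ => by
      rw [hq0W _ (hWinv _ (inv_mem h.2) w hw), ← Module.End.mul_apply, (hu _).2, Module.End.one_apply],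
      Finset.sum_const, Finset.card_univ, ← Nat.cast_smul_eq_nsmul k, smul_smul, inv_mul_cancel₀ hcard, one_smul]
  have he0W : ∀ w ∈ W, e0 w = 0 := fun w hw => by
    rw [he0, LinearMap.sub_apply, hqfix w hw, Module.End.one_apply, sub_self]
  have hEe0 : E ^ (l - 1) * e0 = E ^ (l - 1) := LinearMap.ext fun u => by
    rw [Module.End.mul_apply, he0, LinearMap.sub_apply, map_sub, LinearMap.mem_ker.1 (hqW u), sub_zero,
      Module.End.one_apply]
  have he00 : e0 * e0 = e0 := LinearMap.ext fun u => by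
    rw [Module.End.mul_apply]
    conv_lhs => arg 2; rw [he0, LinearMap.sub_apply, Module.End.one_apply]
    rw [map_sub, he0W _ (hqW u), sub_zero]
  have he0h : ∀ h : H, ρ h * e0 = e0 * ρ h := fun h => by
    have := havg 0 q0 h
    rw [pow_zero, one_smul] at this
    rw [he0, mul_sub, sub_mul, this, mul_one, one_mul]
  set T := LinearMap.range e0 with hT
  have hTfix : ∀ t ∈ T, e0 t = t := by
    rintro _ ⟨u, rfl⟩
    rw [← Module.End.mul_apply, he00]
  set d : k := LinearMap.trace k U e0 with hd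
  have hd0 : d ≠ 0 := by
    have hproj : LinearMap.IsProj T e0 := ⟨fun u => ⟨u, rfl⟩, hTfix⟩
    rw [hd, hproj.trace]
    intro h0
    have h1 : p ∣ Module.finrank k T := (CharP.cast_eq_zero_iff k p _).1 h0
    have h2 : Module.finrank k T ≤ N := Submodule.finrank_le T
    have h3 : Module.finrank k T = 0 := Nat.eq_zero_of_dvd_of_lt h1 (by omega)
    rw [Submodule.finrank_eq_zero, hT, LinearMap.range_eq_bot] at h3
    rw [h3, mul_zero] at hEe0
    exact hEl1 hEe0.symm
  -- coordinates
  let Ψ : (Fin l → T) →ₗ[k] U :=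
    ∑ i : Fin l, (E ^ (i : ℕ)).comp (T.subtype.comp (LinearMap.proj i))
  have hΨ : LinearMap.ker Ψ = ⊥ := by
    rw [LinearMap.ker_eq_bot']
    intro t ht
    have key : ∀ m : ℕ, ∀ i : Fin l, (i : ℕ) < m → t i = 0 := by
      intro m
      induction m with
      | zero => intro i hi; omega
      | succ m ih =>
        intro i hi
        rcases Nat.lt_or_ge (i : ℕ) m with h | h
        · exact ih i h
        have him : (i : ℕ) = m := by omega
        have h1 := congrArg (E ^ (l - 1 - m)) ht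
        simp only [Ψ, LinearMap.sum_apply, map_sum, map_zero, LinearMap.comp_apply, LinearMap.proj_apply,
          Submodule.subtype_apply] at h1
        rw [Finset.sum_eq_single i (fun j _ hj => ?_) (by simp), ← Module.End.mul_apply, ← pow_add, him,
          show l - 1 - m + m = l - 1 by omega] at h1
        · exact Subtype.ext ((hTfix _ (t i).2).symm.trans (he0W _ h1))
        · rcases Nat.lt_or_ge (j : ℕ) m with hjm | hjm
          · rw [ih j hjm]; simp
          · have : (j : ℕ) ≠ m := fun h => hj (Fin.ext (h.trans him.symm))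
            rw [← Module.End.mul_apply, ← pow_add, pow_eq_zero_of_le (by omega) hEl, LinearMap.zero_apply]
    funext i
    exact key l i i.2
  obtain ⟨Lc, hLc⟩ := Ψ.exists_leftInverse_of_injective hΨ
  let τ0 : Module.End k U := T.subtype.comp ((LinearMap.proj ⟨l - 1, by omega⟩).comp Lc)
  have hτ0 : ∀ m, m < l → τ0 * (E ^ m * e0) = if m = l - 1 then e0 else 0 := by
    intro m hm
    refine LinearMap.ext fun u => ?_
    have h1 : (E ^ m * e0) u = Ψ (Pi.single ⟨m, hm⟩ ⟨e0 u, ⟨u, rfl⟩⟩) := by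
      simp only [Ψ, LinearMap.sum_apply, LinearMap.comp_apply, LinearMap.proj_apply, Submodule.subtype_apply,
        Module.End.mul_apply]
      rw [Finset.sum_eq_single (⟨m, hm⟩ : Fin l) (fun j _ hj => by simp [Pi.single_eq_of_ne hj]) (by simp),
        Pi.single_eq_same]
    rw [Module.End.mul_apply, h1]
    simp only [τ0, LinearMap.comp_apply, LinearMap.proj_apply, Submodule.subtype_apply]
    rw [← LinearMap.comp_apply Lc, hLc, LinearMap.id_apply]
    by_cases hml : m = l - 1
    · subst hml; rw [if_pos rfl, Pi.single_eq_same]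
    · rw [if_neg hml, Pi.single_eq_of_ne (by simpa [Fin.ext_iff] using Ne.symm hml)]; rfl
  set τ := avg (l - 1) τ0 with hτdef
  have hτh : ∀ h : H, rr h ^ (l - 1) • (ρ h * τ) = τ * ρ h := havg (l - 1) τ0
  have hτ : ∀ m, τ * (E ^ m * e0) = if m = l - 1 then e0 else 0 := by
    intro m
    rcases Nat.lt_or_ge m l with hm | hm
    swap
    · rw [if_neg (by omega), pow_eq_zero_of_le hm hEl, zero_mul, mul_zero]
    simp only [hτdef, avg, smul_mul_assoc, Finset.sum_mul]
    rw [Finset.sum_congr rfl (g := fun _ => if m = l - 1 then e0 else 0) fun h _ => ?_, Finset.sum_const,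
      Finset.card_univ, ← Nat.cast_smul_eq_nsmul k, smul_smul, inv_mul_cancel₀ hcard, one_smul]
    have h1 : ρ (h : G)⁻¹ * (E ^ m * e0) = rr h⁻¹ ^ m • (E ^ m * e0 * ρ (h : G)⁻¹) := by
      rw [← mul_assoc, show (h : G)⁻¹ = ((h⁻¹ : H) : G) from rfl, hrpow, smul_mul_assoc, mul_assoc, he0h, mul_assoc]
    rw [mul_assoc, mul_assoc, h1, mul_smul_comm, ← mul_assoc τ0, hτ0 m hm, mul_smul_comm, smul_smul]
    split_ifs with hml
    · rw [hml, ← mul_pow, ← hrmul, mul_inv_cancel, hr1, one_pow, one_smul, ← mul_assoc, he0h, mul_assoc, (hu _).2,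
        mul_one]
    · simp
  clear_value τ e0
  -- the embedding of matrices
  let I : Fin l → Module.End k U := fun i => E ^ (i : ℕ) * e0
  let C : Fin l → Module.End k U := fun j => e0 * (τ * E ^ (l - 1 - (j : ℕ)))
  have hCI : ∀ i j, C j * I i = if i = j then e0 else 0 := by
    intro i j
    simp only [C, I, mul_assoc]
    rw [← mul_assoc (E ^ _), ← pow_add, hτ]
    by_cases hij : i = j
    · subst hij
      rw [if_pos (by omega), if_pos rfl, he00]
    · have : (i : ℕ) ≠ j := fun h => hij (Fin.ext h)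
      rw [if_neg (by omega), if_neg hij, mul_zero]
  let ι : Matrix (Fin l) (Fin l) k →ₗ[k] Module.End k U :=
    { toFun := fun a => ∑ i, ∑ j, a i j • (I i * C j)
      map_add' := fun a b => by simp [add_smul, Finset.sum_add_distrib]
      map_smul' := fun c a => by simp [Finset.smul_sum, smul_smul] }
  have hιI : ∀ a, ι a = ∑ i, ∑ j, a i j • (I i * C j) := fun a => rfl
  have hIe : ∀ i, I i * e0 = I i := fun i => by simp only [I, mul_assoc, he00]
  have hιmul : ∀ a b, ι a * ι b = ι (a * b) := by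
    intro a b
    rw [hιI, hιI, hιI, Finset.sum_mul]
    refine Finset.sum_congr rfl fun i _ => ?_
    rw [Finset.sum_mul]
    conv_rhs => simp only [Matrix.mul_apply, Finset.sum_smul]; rw [Finset.sum_comm]
    refine Finset.sum_congr rfl fun m _ => ?_
    simp only [Finset.mul_sum]
    rw [Finset.sum_eq_single m (fun m' _ hm' => Finset.sum_eq_zero fun j _ => ?_) (by simp)]
    · refine Finset.sum_congr rfl fun j _ => ?_
      rw [smul_mul_assoc, mul_smul_comm, smul_smul, mul_assoc, ← mul_assoc (C m), hCI, if_pos rfl,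
        ← mul_assoc (I i), hIe]
    · rw [smul_mul_assoc, mul_smul_comm, mul_assoc, ← mul_assoc (C m), hCI, if_neg hm', zero_mul, mul_zero, smul_zero,
        smul_zero]
  have hEι : ∀ a, E * ι a = ι (jE k l * a) := by
    intro a
    rw [hιI, hιI, Finset.mul_sum]
    conv_rhs => simp only [Matrix.mul_apply, Finset.sum_smul]; arg 2; ext i; rw [Finset.sum_comm]
    conv_rhs => rw [Finset.sum_comm]
    refine Finset.sum_congr rfl fun m _ => ?_
    rw [Finset.mul_sum]
    conv_rhs => rw [Finset.sum_comm]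
    refine Finset.sum_congr rfl fun j _ => ?_
    rw [mul_smul_comm, ← mul_assoc]
    simp only [I]
    rw [← mul_assoc E, ← pow_succ']
    by_cases hm : (m : ℕ) + 1 < l
    · rw [Finset.sum_eq_single (⟨(m : ℕ) + 1, hm⟩ : Fin l) (fun i _ hi => ?_) (by simp)]
      · simp [jE]
      · simp [jE, show (i : ℕ) ≠ m + 1 from fun h => hi (Fin.ext h)]
    · rw [pow_eq_zero_of_le (show l ≤ (m : ℕ) + 1 by omega) hEl, zero_mul, zero_mul, smul_zero]
      exact (Finset.sum_eq_zero fun i _ => by simp [jE, show (i : ℕ) ≠ m + 1 by omega]).symm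
  have hιE : ∀ a, ι a * E = ι (a * jE k l) := by
    intro a
    simp only [hιI, Finset.sum_mul, Matrix.mul_apply, Finset.sum_smul]
    refine Finset.sum_congr rfl fun i _ => ?_
    rw [Finset.sum_comm (γ := Fin l) (f := fun j m => (a i m * jE k l m j) • (I i * C j))]
    refine Finset.sum_congr rfl fun m _ => ?_
    rw [smul_mul_assoc, mul_assoc (I i)]
    simp only [C]
    rw [mul_assoc e0, mul_assoc τ, ← pow_succ]
    by_cases hm : 1 ≤ (m : ℕ)
    · rw [Finset.sum_eq_single (⟨(m : ℕ) - 1, by omega⟩ : Fin l) (fun j _ hj => ?_) (by simp)]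
      · rw [show l - 1 - (m : ℕ) + 1 = l - 1 - ((m : ℕ) - 1) by omega]
        simp [jE, show (m : ℕ) = (m : ℕ) - 1 + 1 ↔ True by simp; omega]
      · have : (m : ℕ) ≠ j + 1 := fun h => hj (Fin.ext (by simp; omega))
        simp [jE, this]
    · rw [pow_eq_zero_of_le (show l ≤ l - 1 - (m : ℕ) + 1 by omega) hEl, mul_zero, mul_zero, mul_zero, smul_zero]
      exact (Finset.sum_eq_zero fun j _ => by simp [jE, show (m : ℕ) ≠ j + 1 by omega]).symm
  have hιh : ∀ (h : H) a, ρ h * ι a = ι (jD k l (rr h) * a * jD k l (rr h)⁻¹) * ρ h := by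
    intro h a
    simp only [hιI, Finset.mul_sum, Finset.sum_mul, jD, Matrix.diagonal_mul, Matrix.mul_diagonal]
    refine Finset.sum_congr rfl fun i _ => Finset.sum_congr rfl fun j _ => ?_
    show ρ (h : G) * (a i j • (E ^ (i : ℕ) * e0 * (e0 * (τ * E ^ (l - 1 - (j : ℕ)))))) =
      (rr h ^ (i : ℕ) * a i j * (rr h)⁻¹ ^ (j : ℕ)) • (E ^ (i : ℕ) * e0 * (e0 * (τ * E ^ (l - 1 - (j : ℕ))))) * ρ (h : G)
    have hI : ρ (h : G) * (E ^ (i : ℕ) * e0) = rr h ^ (i : ℕ) • (E ^ (i : ℕ) * e0 * ρ (h : G)) := by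
      rw [← mul_assoc, hrpow, smul_mul_assoc, mul_assoc, he0h, ← mul_assoc]
    have hc : ρ (h : G) * (τ * E ^ (l - 1 - (j : ℕ))) = ((rr h)⁻¹) ^ (j : ℕ) • (τ * E ^ (l - 1 - (j : ℕ)) * ρ h) := by
      have h1 : ρ (h : G) * τ = ((rr h)⁻¹) ^ (l - 1) • (τ * ρ h) := by
        rw [← hτh, smul_smul, ← mul_pow, inv_mul_cancel₀ (hr0 h), one_pow, one_smul]
      rw [← mul_assoc, h1, smul_mul_assoc, mul_assoc, hrpow, mul_smul_comm, smul_smul, mul_assoc]
      congr 1
      have hj := j.2
      rw [show (rr h)⁻¹ ^ (l - 1) = (rr h)⁻¹ ^ (j : ℕ) * (rr h)⁻¹ ^ (l - 1 - (j : ℕ)) by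
        rw [← pow_add]; congr 1; omega, mul_assoc, ← mul_pow, inv_mul_cancel₀ (hr0 h), one_pow, mul_one]
    rw [mul_smul_comm, smul_mul_assoc, ← mul_assoc (ρ (h : G)), hI, smul_mul_assoc, mul_assoc (E ^ (i : ℕ) * e0),
      ← mul_assoc (ρ (h : G)) e0, he0h, mul_assoc e0 (ρ (h : G)), hc]
    simp only [mul_smul_comm, smul_smul, mul_assoc]
    congr 1
    ring
  have hιtr : ∀ a, LinearMap.trace k U (ι a) = Matrix.trace a * d := by
    intro a
    simp only [hιI, map_sum, map_smul, Matrix.trace, Matrix.diag_apply, Finset.sum_mul, smul_eq_mul]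
    refine Finset.sum_congr rfl fun i _ => ?_
    rw [Finset.sum_eq_single i (fun j _ hj => ?_) (by simp)]
    · rw [LinearMap.trace_mul_comm, hCI, if_pos rfl]
    · rw [LinearMap.trace_mul_comm, hCI, if_neg (Ne.symm hj), map_zero, mul_zero]
  -- the projection
  set a1 := ι (jE k l) with ha1
  set a2 := ι (jF k l) with ha2
  set a3 := ι (jH k l) with ha3
  set c := Matrix.trace (jE k l * jF k l) * d with hc
  have hc0 : c ≠ 0 := mul_ne_zero (trace_jE_jF_ne_zero (p := p) hp hl2 (by omega)) hd0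
  have h20 : (2 : k) ≠ 0 := fun h => by
    have := (CharP.cast_eq_zero_iff k p 2).1 (by exact_mod_cast h)
    exact absurd (Nat.le_of_dvd (by norm_num) this) (by omega)
  let tr := LinearMap.trace k U
  have t11 : tr (a1 * a1) = 0 := by simp [tr, ha1, hιmul, hιtr, trace_jE_jE]
  have t22 : tr (a2 * a2) = 0 := by simp [tr, ha2, hιmul, hιtr, trace_jF_jF]
  have t33 : tr (a3 * a3) = 2 * c := by simp [tr, ha3, hc, hιmul, hιtr, trace_jH_jH, mul_assoc]
  have t12 : tr (a1 * a2) = c := by simp [tr, ha1, ha2, hc, hιmul, hιtr]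
  have t21 : tr (a2 * a1) = c := by rw [← t12]; exact LinearMap.trace_mul_comm _ _ _
  have t13 : tr (a1 * a3) = 0 := by simp [tr, ha1, ha3, hιmul, hιtr, trace_jE_jH]
  have t31 : tr (a3 * a1) = 0 := by rw [← t13]; exact LinearMap.trace_mul_comm _ _ _
  have t23 : tr (a2 * a3) = 0 := by simp [tr, ha2, ha3, hιmul, hιtr, trace_jF_jH]
  have t32 : tr (a3 * a2) = 0 := by rw [← t23]; exact LinearMap.trace_mul_comm _ _ _
  let Φ : Module.End k U →ₗ[k] (Fin 3 → k) := LinearMap.pi
    ![c⁻¹ • tr.comp (LinearMap.mulRight k a2), c⁻¹ • tr.comp (LinearMap.mulRight k a1),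
      (2 * c)⁻¹ • tr.comp (LinearMap.mulRight k a3)]
  let Θ : (Fin 3 → k) →ₗ[k] Module.End k U :=
    (LinearMap.proj 0).smulRight a1 + (LinearMap.proj 1).smulRight a2 + (LinearMap.proj 2).smulRight a3
  have hΦΘ : ∀ v, Φ (Θ v) = v := by
    intro v
    funext i
    fin_cases i <;>
      simp [Φ, Θ, add_mul, t11, t12, t13, t21, t22, t23, t31, t32, t33, hc0, h20] <;> field_simp
  set π := Θ.comp Φ with hπ
  have hπval : ∀ q, π q = (c⁻¹ * tr (q * a2)) • a1 + (c⁻¹ * tr (q * a1)) • a2 + ((2 * c)⁻¹ * tr (q * a3)) • a3 :=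
    fun q => by simp [hπ, Φ, Θ]
  set σ := Representation.linHom ρ ρ with hσdef
  have hσ : ∀ g q, σ g q = ρ g * q * ρ g⁻¹ := fun g q => by rw [mul_assoc]; rfl
  let Lm : Module.End k (Module.End k U) := LinearMap.mulLeft k E
  let Rm : Module.End k (Module.End k U) := LinearMap.mulRight k E
  let ad : Module.End k (Module.End k U) := Lm - Rm
  have hLR : Commute Lm Rm := LinearMap.commute_mulLeft_right E E
  have hLN : Lm ^ N = 0 := by
    show (LinearMap.mulLeft k E) ^ N = 0
    rw [LinearMap.pow_mulLeft, hEN, LinearMap.mulLeft_zero_eq_zero]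
  have hRN : Rm ^ N = 0 := by
    show (LinearMap.mulRight k E) ^ N = 0
    rw [LinearMap.pow_mulRight, hEN, LinearMap.mulRight_zero_eq_zero]
  have hRN' : (-Rm) ^ N = 0 := (neg_pow Rm N).trans (by rw [hRN]; exact mul_zero _)
  have hadN : ad ^ (p - 1) = 0 := by
    show (Lm - Rm) ^ (p - 1) = 0
    rw [sub_eq_add_neg]
    exact (Commute.neg_right hLR).add_pow_eq_zero_of_add_le_succ_of_pow_eq_zero hLN hRN' (by omega)
  have hσx : σ x = ee k p ad := by
    have hL : 2 * N ≤ p + 1 := by omega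
    have hinv : ρ x⁻¹ = ee k p (-E) := by
      calc ρ x⁻¹ = ee k p (-E) * ee k p E * ρ x⁻¹ := by rw [ee_neg_mul hL hEN, one_mul]
        _ = ee k p (-E) := by rw [hEx, mul_assoc, (hu x).2, mul_one]
    show _ = ee k p (Lm - Rm)
    rw [sub_eq_add_neg, ee_add (Commute.neg_right hLR) hL hLN hRN',
      show Lm = Algebra.lmul k (Module.End k U) E from rfl, ← ee_map]
    refine LinearMap.ext fun q => ?_
    rw [hσ, hinv, hEx, Module.End.mul_apply]
    have hneg : -Rm = LinearMap.mulRight k (-E) := LinearMap.ext fun z => by simp [Rm]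
    rw [hneg]
    simp only [ee, LinearMap.sum_apply, LinearMap.smul_apply, LinearMap.pow_mulRight, LinearMap.mulRight_apply,
      Algebra.coe_lmul_eq_mul, LinearMap.mul_apply', Finset.mul_sum, mul_smul_comm, mul_assoc]
  have hadπ : Commute π ad := by
    refine LinearMap.ext fun q => ?_
    simp only [Module.End.mul_apply, ad, Lm, Rm, LinearMap.sub_apply, LinearMap.mulLeft_apply, LinearMap.mulRight_apply, hπval]
    have hmove : ∀ a, tr ((E * q - q * E) * ι a) = - tr (q * ι (jE k l * a - a * jE k l)) := by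
      intro a
      simp only [tr, sub_mul, map_sub, mul_sub, neg_sub, mul_assoc, ← hEι, ← hιE]
      rw [LinearMap.trace_mul_comm k E, mul_assoc]
    have e3 : jE k l * jH k l - jH k l * jE k l = (2 : k) • jE k l := comm_jE_jH
    have e2 : jE k l * jF k l - jF k l * jE k l = - jH k l := comm_jE_jF
    have b1 : E * a1 - a1 * E = 0 := by rw [ha1, hEι, hιE, sub_self]
    have b2 : E * a2 - a2 * E = -a3 := by rw [ha2, hEι, hιE, ← map_sub, e2, map_neg]
    have b3 : E * a3 - a3 * E = (2 : k) • a1 := by rw [ha3, hEι, hιE, ← map_sub, e3, map_smul]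
    have r1 : tr ((E * q - q * E) * a2) = tr (q * a3) := by
      rw [ha2, hmove, e2, map_neg, mul_neg, map_neg, neg_neg]
    have r2 : tr ((E * q - q * E) * a1) = 0 := by rw [ha1, hmove, sub_self, map_zero, mul_zero, map_zero, neg_zero]
    have r3 : tr ((E * q - q * E) * a3) = -(2 * tr (q * a1)) := by
      rw [ha3, hmove, e3, map_smul, mul_smul_comm, map_smul, smul_eq_mul]
    rw [r1, r2, r3, mul_zero, zero_smul, add_zero]
    simp only [mul_add, add_mul, mul_smul_comm, smul_mul_assoc]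
    rw [show ∀ A B C A' B' C' : Module.End k U, A + B + C - (A' + B' + C') = (A - A') + (B - B') + (C - C') from
      fun _ _ _ _ _ _ => by abel, ← smul_sub, ← smul_sub, ← smul_sub, b1, b2, b3, smul_zero, zero_add, smul_neg, smul_smul]
    match_scalars <;> field_simp
  refine ⟨π, LinearMap.ext fun q => ?_, fun a b => ?_, ?_, ?_, fun h hh => ?_, ?_, a2, ⟨a2, ?_⟩, ?_⟩
  · show Θ (Φ (Θ (Φ q))) = Θ (Φ q)
    rw [hΦΘ]
  · simp only [hπval, add_mul, mul_add, map_add, smul_mul_assoc, mul_smul_comm, map_smul, smul_eq_mul, tr,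
      LinearMap.trace_mul_comm k b]
    ring
  · have hinj : Function.Injective Θ := Function.LeftInverse.injective hΦΘ
    rw [hπ, LinearMap.range_comp_of_range_eq_top _ (LinearMap.range_eq_top.2 (Function.RightInverse.surjective hΦΘ)),
      LinearMap.finrank_range_of_inj hinj, Module.finrank_pi, Fintype.card_fin]
  · rw [hσx]; exact commute_ee hadπ
  · refine LinearMap.ext fun q => ?_
    set r := rr ⟨h, hh⟩ with hrdef
    have hr := hr0 ⟨h, hh⟩
    have hDD : jD k l r * jD k l r⁻¹ = 1 := by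
      rw [jD, jD, Matrix.diagonal_mul_diagonal, ← Matrix.diagonal_one]
      congr 1; funext i; rw [← mul_pow, mul_inv_cancel₀ hr, one_pow]
    have m1 : jD k l r * jE k l * jD k l r⁻¹ = r • jE k l := by
      rw [jD_conj_jE, Matrix.smul_mul, Matrix.mul_assoc, hDD, Matrix.mul_one]
    have m2 : jD k l r * jF k l * jD k l r⁻¹ = r⁻¹ • jF k l := by
      have := jD_conj_jF (k := k) (l := l) r
      rw [← (inv_smul_smul₀ hr (jD k l r * jF k l)), this, Matrix.smul_mul, Matrix.mul_assoc, hDD, Matrix.mul_one]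
    have m3 : jD k l r * jH k l * jD k l r⁻¹ = jH k l := by
      rw [jD_conj_jH, Matrix.mul_assoc, hDD, Matrix.mul_one]
    have hconj : ∀ a, ρ h * ι a * ρ h⁻¹ = ι (jD k l r * a * jD k l r⁻¹) := fun a => by
      rw [hιh ⟨h, hh⟩ a, mul_assoc, (hu h).2, mul_one]
    have hback : ∀ a, tr (ρ h * q * ρ h⁻¹ * (ρ h * a * ρ h⁻¹)) = tr (q * a) := fun a => by
      rw [show ρ h * q * ρ h⁻¹ * (ρ h * a * ρ h⁻¹) = ρ h * (q * (ρ h⁻¹ * ρ h) * a * ρ h⁻¹) by noncomm_ring,
        (hu h).1, mul_one]
      show LinearMap.trace k U _ = _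
      rw [LinearMap.trace_mul_comm, mul_assoc (q * a), (hu h).1, mul_one]
    have c1 : ρ h * a1 * ρ h⁻¹ = r • a1 := by rw [ha1, hconj, m1, map_smul]
    have c2 : ρ h * a2 * ρ h⁻¹ = r⁻¹ • a2 := by rw [ha2, hconj, m2, map_smul]
    have c3 : ρ h * a3 * ρ h⁻¹ = a3 := by rw [ha3, hconj, m3]
    have s1 : tr (ρ h * q * ρ h⁻¹ * a1) = r⁻¹ * tr (q * a1) := by
      rw [← hback a1, c1, mul_smul_comm, map_smul, smul_eq_mul, inv_mul_cancel_left₀ hr]
    have s2 : tr (ρ h * q * ρ h⁻¹ * a2) = r * tr (q * a2) := by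
      rw [← hback a2, c2, mul_smul_comm, map_smul, smul_eq_mul, mul_inv_cancel_left₀ hr]
    have s3 : tr (ρ h * q * ρ h⁻¹ * a3) = tr (q * a3) := by rw [← hback a3, c3]
    rw [Module.End.mul_apply, Module.End.mul_apply, hσ, hπval, hπval, hσ, s1, s2, s3]
    simp only [mul_add, add_mul, mul_smul_comm, smul_mul_assoc, c1, c2, c3, smul_smul]
    congr 3 <;> ring
  · obtain ⟨w, hw, hwe⟩ := ee_sub_one_eq (k := k) (p := p) ad
    rw [hσx, hwe, hw.mul_pow, hadN, zero_mul]
  · rw [hπval, t22, t21, t23]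
    simp [hc0]
  · have b2 : ad a2 = -a3 := by
      simp [ad, Lm, Rm, ha2, ha3, hEι, hιE, ← map_sub, comm_jE_jF]
    have b3 : ad a3 = (2 : k) • a1 := by
      simp [ad, Lm, Rm, ha1, ha3, hEι, hιE, ← map_sub, comm_jE_jH]
    have b1 : ad a1 = 0 := by simp [ad, Lm, Rm, ha1, hEι, hιE]
    obtain ⟨n, rfl⟩ : ∃ n, p = n + 3 := ⟨p - 3, by omega⟩
    have hhigh : ∀ i, (ad ^ (i + 3)) a2 = 0 ∧ (ad ^ (i + 2)) a3 = 0 := fun i => by
      constructor <;> simp [pow_add, pow_succ, b1, b2, b3]
    have f2 : σ x a2 = a2 - a3 - a1 := by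
      rw [hσx, ee, LinearMap.sum_apply, Finset.sum_range_succ', Finset.sum_range_succ', Finset.sum_range_succ']
      simp only [LinearMap.smul_apply, (hhigh _).1, smul_zero, Finset.sum_const_zero, zero_add]
      simp only [pow_succ, pow_zero, one_mul, Module.End.mul_apply, Module.End.one_apply, b2, b3, map_neg,
        Nat.factorial]
      match_scalars <;> field_simp <;> norm_num [div_self h20, one_add_one_eq_two]
    have f3 : σ x a3 = a3 + (2 : k) • a1 := by
      rw [hσx, ee, LinearMap.sum_apply, Finset.sum_range_succ', Finset.sum_range_succ', Finset.sum_range_succ']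
      simp only [LinearMap.smul_apply, show ∀ i, (ad ^ (i + 1 + 1 + 1)) a3 = 0 from fun i => (hhigh (i + 1)).2,
        smul_zero, Finset.sum_const_zero, zero_add]
      simp only [pow_succ, pow_zero, one_mul, Module.End.mul_apply, Module.End.one_apply, b1, b3, map_smul, map_zero,
        Nat.factorial]
      match_scalars <;> field_simp
    have f1 : σ x a1 = a1 := by
      rw [hσx, ee, LinearMap.sum_apply, Finset.sum_range_succ']
      simp [pow_succ, b1]
    have key : (σ x - 1) ((σ x - 1) a2) = -((2 : k) • a1) := by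
      simp only [LinearMap.sub_apply, Module.End.one_apply, f2, map_sub, f1, f3]
      abel
    rw [key, neg_ne_zero, smul_ne_zero_iff]
    refine ⟨h20, fun h0 => hc0 ?_⟩
    rw [← t12, h0, zero_mul, map_zero]

end CfsgLib.HalfDeg
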