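import Mathlib

/-!
The truncated exponential in characteristic `p` on nilpotent elements of small index.
-/

set_option autoImplicit false
set_option linter.unusedSectionVars false

namespace CfsgLib.HalfDeg

open Finset

variable {k : Type*} [Field k] {p : ℕ} [Fact p.Prime] [CharP k p] {A : Type*} [Ring A] [Algebra k A]

variable (k p) in
/-- The exponential series truncated below degree `p`. -/
def ee (a : A) : A := ∑ i ∈ range p, ((i.factorial : k)⁻¹) • a ^ i

theorem factorial_ne_zero {i : ℕ} (hi : i < p) : (i.factorial : k) ≠ 0 := fun h => by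
  rw [CharP.cast_eq_zero_iff k p] at h
  exact absurd ((Nat.Prime.dvd_factorial Fact.out).1 h) (by omega)

theorem ee_zero : ee k p (0 : A) = 1 := by
  rw [ee, Finset.sum_eq_single 0 (fun i _ hi => by rw [zero_pow hi, smul_zero])
    (fun h => absurd (mem_range.2 (Nat.Prime.pos Fact.out)) h)]
  simp

theorem ee_add {a b : A} (hc : Commute a b) {L : ℕ} (hL : 2 * L ≤ p + 1) (ha : a ^ L = 0) (hb : b ^ L = 0) :
    ee k p (a + b) = ee k p a * ee k p b := by
  classical
  have hvan : ∀ i j, p ≤ i + j → a ^ i * b ^ j = 0 := fun i j h => by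
    rcases Nat.lt_or_ge i L with hi | hi
    · rw [pow_eq_zero_of_le (show L ≤ j by omega) hb, mul_zero]
    · rw [pow_eq_zero_of_le hi ha, zero_mul]
  set t : ℕ → ℕ → A := fun i j => ((i.factorial : k)⁻¹ * (j.factorial : k)⁻¹) • (a ^ i * b ^ j)
  have h1 : ee k p a * ee k p b = ∑ q ∈ range p ×ˢ range p, t q.1 q.2 := by
    rw [ee, ee, Finset.sum_mul_sum, Finset.sum_product]
    exact Finset.sum_congr rfl fun i _ => Finset.sum_congr rfl fun j _ => smul_mul_smul_comm _ _ _ _
  have h2 : ∑ q ∈ range p ×ˢ range p, t q.1 q.2 = ∑ n ∈ range p, ∑ q ∈ antidiagonal n, t q.1 q.2 := by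
    rw [← Finset.sum_filter_add_sum_filter_not _ (fun q => q.1 + q.2 < p)]
    have hz : ∑ q ∈ range p ×ˢ range p with ¬ q.1 + q.2 < p, t q.1 q.2 = 0 := Finset.sum_eq_zero fun q hq => by
      simp only [t, hvan _ _ (not_lt.1 (Finset.mem_filter.1 hq).2), smul_zero]
    rw [hz, add_zero]
    rw [← Finset.sum_biUnion]
    · refine Finset.sum_congr ?_ fun _ _ => rfl
      ext ⟨i, j⟩
      simp only [mem_filter, mem_product, mem_range, mem_biUnion, HasAntidiagonal.mem_antidiagonal]
      exact ⟨fun h => ⟨i + j, h.2, rfl⟩, fun ⟨n, hn, hij⟩ => ⟨⟨by omega, by omega⟩, by omega⟩⟩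
    · intro m _ n _ hmn
      rw [Function.onFun, Finset.disjoint_left]
      intro q h1 h2
      rw [HasAntidiagonal.mem_antidiagonal] at h1 h2
      omega
  rw [h1, h2, ee]
  refine Finset.sum_congr rfl fun n hn => ?_
  rw [hc.add_pow', Finset.smul_sum]
  refine Finset.sum_congr rfl fun q hq => ?_
  rw [HasAntidiagonal.mem_antidiagonal] at hq
  rw [← Nat.cast_smul_eq_nsmul k, smul_smul]
  congr 1
  have hf := Nat.choose_mul_factorial_mul_factorial (show q.1 ≤ n by omega)
  rw [show n - q.1 = q.2 by omega] at hf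
  have hp : n < p := mem_range.1 hn
  have h3 := factorial_ne_zero (k := k) (p := p) hp
  have h4 := factorial_ne_zero (k := k) (p := p) (show q.1 < p by omega)
  have h5 := factorial_ne_zero (k := k) (p := p) (show q.2 < p by omega)
  field_simp
  rw [← hf]
  push_cast
  ring

theorem ee_neg_mul {a : A} {L : ℕ} (hL : 2 * L ≤ p + 1) (ha : a ^ L = 0) : ee k p (-a) * ee k p a = 1 := by
  rw [← ee_add (Commute.neg_left (Commute.refl a)) hL (by rw [neg_pow, ha, mul_zero]) ha, neg_add_cancel, ee_zero]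

theorem ee_natCast_smul {a : A} {L : ℕ} (hL : 2 * L ≤ p + 1) (ha : a ^ L = 0) :
    ∀ n : ℕ, ee k p ((n : k) • a) = ee k p a ^ n := by
  intro n
  induction n with
  | zero => rw [Nat.cast_zero, zero_smul, ee_zero, pow_zero]
  | succ n ih =>
    rw [Nat.cast_succ, add_smul, one_smul, ee_add ((Commute.refl a).smul_left _) hL (by rw [smul_pow, ha, smul_zero]) ha,
      ih, pow_succ]

theorem ee_map {B : Type*} [Ring B] [Algebra k B] (f : A →ₐ[k] B) (a : A) : f (ee k p a) = ee k p (f a) := by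
  simp [ee, map_sum, map_pow]

theorem exists_ee_eq_add (a : A) : ∃ v : A, ee k p a = 1 + a + a * a * v := by
  obtain ⟨n, rfl⟩ : ∃ n, p = n + 2 := ⟨p - 2, by have := (Fact.out : p.Prime).two_le; omega⟩
  refine ⟨∑ i ∈ range n, (((i + 2).factorial : k)⁻¹) • a ^ i, ?_⟩
  rw [ee, Finset.sum_range_succ', Finset.sum_range_succ', Finset.mul_sum]
  simp only [zero_add, pow_zero, pow_one, Nat.factorial_zero, Nat.factorial_one, Nat.cast_one, inv_one, one_smul]
  rw [Finset.sum_congr rfl (g := fun i => a * a * (((i + 2).factorial : k)⁻¹ • a ^ i)) fun i _ => ?_]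
  · abel
  · rw [mul_smul_comm, ← pow_two, ← pow_add, add_comm 2 i, add_assoc]

/-- A universal logarithm. -/
theorem exists_log (L : ℕ) (hL : 2 * L ≤ p + 1) (c : A) (hc : (c - 1) ^ L = 0) :
    ∃ P : Polynomial k, ee k p (Polynomial.aeval c P) = c ∧ (Polynomial.aeval c P) ^ L = 0 := by
  classical
  let R := AdjoinRoot ((Polynomial.X - 1 : Polynomial k) ^ L)
  let t : R := AdjoinRoot.root _
  have ht : (t - 1) ^ L = 0 := by
    have h := AdjoinRoot.mk_self (f := (Polynomial.X - 1 : Polynomial k) ^ L)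
    rw [map_pow, map_sub, AdjoinRoot.mk_X, map_one] at h
    exact h
  have key : ∀ n : ℕ, ∃ u w : R, t * ee k p (-((t - 1) * u)) - 1 = (t - 1) ^ (n + 1) * w := by
    intro n
    induction n with
    | zero => exact ⟨0, 1, by rw [mul_zero, neg_zero, ee_zero]; simp⟩
    | succ n ih =>
      obtain ⟨u, w, huw⟩ := ih
      set δ := (t - 1) ^ (n + 1) * w
      obtain ⟨v, hv⟩ := exists_ee_eq_add (k := k) (p := p) (-δ)
      refine ⟨u + (t - 1) ^ n * w, (t - 1) ^ n * w * w * (-1 + v + δ * v), ?_⟩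
      have hnil : ∀ z : R, (-((t - 1) * z)) ^ L = 0 := fun z => by rw [neg_pow, mul_pow, ht, zero_mul, mul_zero]
      have e : -((t - 1) * (u + (t - 1) ^ n * w)) = -((t - 1) * u) + -δ := by simp only [δ]; ring
      have hδ : (-δ) ^ L = 0 := by
        rw [show -δ = -((t - 1) * ((t - 1) ^ n * w)) by simp only [δ]; ring]; exact hnil _
      rw [e, ee_add (Commute.all _ _) hL (hnil u) hδ, ← mul_assoc, sub_eq_iff_eq_add'.1 huw, hv]
      simp only [δ]
      ring
  obtain ⟨u, w, huw⟩ := key L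
  rw [pow_succ, ht, zero_mul, zero_mul, sub_eq_zero] at huw
  obtain ⟨P, hP⟩ := AdjoinRoot.mk_surjective (g := (Polynomial.X - 1 : Polynomial k) ^ L) ((t - 1) * u)
  have hn : ((t - 1) * u) ^ L = 0 := by rw [mul_pow, ht, zero_mul]
  have he : ee k p ((t - 1) * u) = t := by
    calc ee k p ((t - 1) * u) = t * ee k p (-((t - 1) * u)) * ee k p ((t - 1) * u) := by rw [huw, one_mul]
      _ = t := by rw [mul_assoc, ee_neg_mul hL hn, mul_one]
  refine ⟨P, ?_⟩
  rw [← hP, ← AdjoinRoot.aeval_eq] at he hn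
  have hdiv : ∀ f : Polynomial k, Polynomial.aeval t f = 0 → Polynomial.aeval c f = 0 := by
    intro f hf
    rw [AdjoinRoot.aeval_eq, AdjoinRoot.mk_eq_zero] at hf
    obtain ⟨g, rfl⟩ := hf
    simp [hc]
  constructor
  · have h := hdiv (ee k p P - Polynomial.X) (by rw [map_sub, ee_map, he, Polynomial.aeval_X, sub_self])
    rw [map_sub, ee_map, Polynomial.aeval_X, sub_eq_zero] at h
    exact h
  · rw [← map_pow]; exact hdiv _ (by rw [map_pow, hn])

theorem eq_zero_of_ee_eq_one {d : A} {L : ℕ} (hd : d ^ L = 0) (h : ee k p d = 1) : d = 0 := by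
  obtain ⟨v, hv⟩ := exists_ee_eq_add (k := k) (p := p) d
  rw [h, add_assoc, left_eq_add] at hv
  have key : ∀ m : ℕ, ∃ w, d = d ^ (m + 1) * w := by
    intro m
    induction m with
    | zero => exact ⟨1, by simp⟩
    | succ m ih =>
      obtain ⟨w, hw⟩ := ih
      refine ⟨-(v * w), ?_⟩
      have h2 : d ^ (m + 1) = -(d ^ (m + 1 + 1) * v) := by
        have := congrArg (d ^ m * ·) hv
        simp only [mul_add, mul_zero] at this
        rw [← pow_succ, ← mul_assoc, ← mul_assoc, ← pow_succ, ← pow_succ] at this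
        exact eq_neg_of_add_eq_zero_left this
      conv_lhs => rw [hw, h2]
      noncomm_ring
  obtain ⟨w, hw⟩ := key L
  rw [hw, pow_succ, hd, zero_mul, zero_mul]

end CfsgLib.HalfDeg
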